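import Cfsg.Agent.H1.SpT.Involution

/-!
Every element of a group over the stabiliser with scalar layers is a tensor product.
-/

set_option autoImplicit false
set_option linter.unusedSectionVars false

namespace Cfsg.Agent.H1.SpT.ST

open scoped Matrix
open Cfsg.Agent.H98 Cfsg.Agent.H25.GeoLists Module

attribute [-simp] Cfsg.Agent.H2.sympBilin_apply

variable {m : ℕ} {F : Type*} [Field F] {A B : Type*} [AddCommGroup A] [Module F A] [AddCommGroup B] [Module F B]
variable {M : Subgroup (GL (Fin m ⊕ Fin m) F)} {ω : A →ₗ[F] A →ₗ[F] F} {s : B →ₗ[F] B →ₗ[F] F}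
  {pu : A →ₗ[F] B →ₗ[F] (Fin m ⊕ Fin m → F)} {C : B →ₗ[F] (Fin m ⊕ Fin m → F) →ₗ[F] A}
  {D : A →ₗ[F] (Fin m ⊕ Fin m → F) →ₗ[F] B}
  [Fintype F] [FiniteDimensional F A] [FiniteDimensional F B]

local notation "V" => (Fin m ⊕ Fin m → F)
local notation "β" => Cfsg.Agent.H2.sympBilin m F

variable (P : ST M ω s pu C D)
include P

/-- A quadratic tensor product acts on one factor only. -/
theorem quad_factor (hb : 3 ≤ finrank F B) {y : GL (Fin m ⊕ Fin m) F} {G : Module.End F A} {k : Module.End F B}
    (h : ∀ x u, op y (pu x u) = pu (G x) (k u)) (hsq : ∀ v, op y (op y v) - op y v - op y v + v = 0) :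
    (∃ G₁ : Module.End F A, ∀ x u, op y (pu x u) = pu (G₁ x) u) ∨
      ∃ k₁ : Module.End F B, ∀ x u, op y (pu x u) = pu x (k₁ u) := by
  classical
  by_cases hG : ∀ x, ∃ c : F, G x = c • x
  · -- the first factor is scalar
    refine Or.inr ?_
    choose c hc using hG
    obtain ⟨x₀, hx₀⟩ | hA : (∃ x : A, x ≠ 0) ∨ (∀ x : A, x = 0) := by
      by_cases h' : ∃ x : A, x ≠ 0
      · exact Or.inl h'
      · push Not at h'; exact Or.inr h'
    swap
    · exact ⟨k, fun x u => by rw [h, hA x, map_zero]⟩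
    refine ⟨c x₀ • k, fun x u => ?_⟩
    rw [h, LinearMap.smul_apply, map_smul, hc x, map_smul, LinearMap.smul_apply]
    rcases eq_or_ne x 0 with rfl | hx
    · simp
    congr 1
    by_cases hd : x ∈ Submodule.span F {x₀}
    · obtain ⟨a, rfl⟩ := Submodule.mem_span_singleton.mp hd
      have h1 := hc (a • x₀)
      rw [map_smul, hc x₀, smul_smul, smul_smul, mul_comm] at h1
      have ha : a ≠ 0 := fun e => hx (by rw [e, zero_smul])
      exact mul_right_cancel₀ ha (smul_left_injective F hx₀ h1).symm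
    · have h1 := hc (x + x₀)
      rw [map_add, hc x, hc x₀] at h1
      have hli : LinearIndependent F ![x, x₀] := by
        refine LinearIndependent.pair_iff' hx₀ |>.mpr ?_ |> LinearIndependent.pair_symm_iff.mp
        exact fun a e => hd (Submodule.mem_span_singleton.mpr ⟨a, e⟩)
      obtain ⟨e1, e2⟩ := LinearIndependent.pair_iff.mp hli (c x - c (x + x₀)) (c x₀ - c (x + x₀))
        (by linear_combination (norm := module) h1)
      exact (sub_eq_zero.mp e1).trans (sub_eq_zero.mp e2).symm
  · refine Or.inl ?_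
    push Not at hG
    obtain ⟨x, hx⟩ := hG
    have hx0 : x ≠ 0 := fun e => hx 0 (by rw [e, map_zero, smul_zero])
    have hker : ∀ u, k u = 0 → u = 0 := fun u hu => by
      have h1 := hsq (pu x u)
      rw [h, hu, map_zero, map_zero, sub_zero, sub_zero, zero_add] at h1
      exact P.pu_inj hx0 (h1.trans (map_zero _).symm)
    obtain ⟨u₀, -, hu₀⟩ := exists_perp s P.T.sym P.T.two P.T.snd (![] : Fin 0 → B) (fun i => i.elim0)
      (fun i => i.elim0) (by omega)
    have hu₀0 : u₀ ≠ 0 := fun e => hu₀ (by rw [e]; simp)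
    have hsq' : ∀ u, pu (G (G x)) (k (k u)) - pu (G x) (k u) - pu (G x) (k u) + pu x u = 0 := fun u => by
      have := hsq (pu x u)
      rwa [h, h] at this
    have hli : LinearIndependent F ![G x, x] :=
      LinearIndependent.pair_symm_iff.mp ((LinearIndependent.pair_iff' hx0).mpr fun c e => hx c e.symm)
    by_cases hd : G (G x) ∈ Submodule.span F (Set.range ![G x, x])
    · obtain ⟨p, q, hpq⟩ : ∃ p q : F, p • G x + q • x = G (G x) := by
        rw [Submodule.mem_span_range_iff_exists_fun] at hd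
        obtain ⟨c, hc⟩ := hd
        exact ⟨c 0, c 1, by simpa [Fin.sum_univ_two] using hc⟩
      have key : ∀ u, p • k (k u) - k u - k u = 0 ∧ q • k (k u) + u = 0 := fun u => by
        have h1 := hsq' u
        rw [← hpq] at h1
        have h2 : ∑ i, pu (![G x, x] i) (![p • k (k u) - k u - k u, q • k (k u) + u] i) = 0 := by
          rw [Fin.sum_univ_two]
          simp only [Matrix.cons_val_zero, Matrix.cons_val_one, map_add, map_sub, map_smul]
          simp only [map_add, map_smul, LinearMap.add_apply, LinearMap.smul_apply] at h1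
          linear_combination (norm := module) h1
        exact ⟨P.sum_pu_eq_zero hli h2 0, P.sum_pu_eq_zero hli h2 1⟩
      have hq : q ≠ 0 := fun e => hu₀0 (by simpa [e] using (key u₀).2)
      refine ⟨(-(p / (2 * q))) • G, fun x' u => ?_⟩
      obtain ⟨h1, h2⟩ := key u
      have e1 : k (k u) = (-q⁻¹) • u := by
        calc k (k u) = q⁻¹ • (q • k (k u)) := by rw [smul_smul, inv_mul_cancel₀ hq, one_smul]
          _ = _ := by rw [eq_neg_of_add_eq_zero_left h2, smul_neg, neg_smul]
      have e2 : k u = (-(p / (2 * q))) • u := by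
        have h3 : (2 : F) • k u = p • k (k u) := by
          rw [two_smul]; linear_combination (norm := module) -h1
        calc k u = (2 : F)⁻¹ • ((2 : F) • k u) := by rw [smul_smul, inv_mul_cancel₀ P.T.two, one_smul]
          _ = _ := by rw [h3, e1, smul_smul, smul_smul]; congr 1; field_simp
      rw [h, e2, map_smul, LinearMap.smul_apply, map_smul, LinearMap.smul_apply]
    · exfalso
      have hli3 : LinearIndependent F (Fin.cons (G (G x)) ![G x, x] : Fin 3 → A) :=
        linearIndependent_finCons.mpr ⟨hli, hd⟩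
      have := P.sum_pu_eq_zero hli3 (u := Fin.cons (k (k u₀)) ![- k u₀ - k u₀, u₀]) (by
        rw [Fin.sum_univ_three]
        show pu (G (G x)) (k (k u₀)) + pu (G x) (- k u₀ - k u₀) + pu x u₀ = 0
        rw [← hsq' u₀, map_sub, map_neg]
        abel) 0
      exact hu₀0 (hker _ (hker _ this))

theorem conj_root (w : A) {g : GL (Fin m ⊕ Fin m) F} (hg : g ∈ M) :
    ∃ y ∈ M, op y = 1 + ((op g).comp (pu w)).comp ((D w).comp (op g⁻¹)) := by
  obtain ⟨a, ha, hea, -⟩ := P.root_elem w
  refine ⟨g * a * g⁻¹, M.mul_mem (M.mul_mem hg ha) (M.inv_mem hg), ?_⟩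
  rw [op_mul, op_mul, hea, mul_add, mul_one, add_mul, op_mul_inv]
  rfl

theorem conj_inj {w : A} (hw : w ≠ 0) (g : GL (Fin m ⊕ Fin m) F) :
    Function.Injective ((op g).comp (pu w)) := fun u v h =>
  P.pu_inj hw (gl_mulVec_injective g h)

theorem range_move {w : A} (hw : w ≠ 0) (g : GL (Fin m ⊕ Fin m) F) {y : GL (Fin m ⊕ Fin m) F}
    (he : op y = 1 + ((op g).comp (pu w)).comp ((D w).comp (op g⁻¹))) :
    LinearMap.range (op y - 1) = LinearMap.range ((op g).comp (pu w)) := by
  rw [he, add_sub_cancel_left]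
  refine LinearMap.range_comp_of_range_eq_top _ (LinearMap.range_eq_top.mpr fun u => ?_)
  obtain ⟨v, hv⟩ := P.Dw_surj hw u
  refine ⟨op g v, ?_⟩
  rw [LinearMap.comp_apply, ← Module.End.mul_apply, op_inv_mul, Module.End.one_apply, hv]

/-- Conjugates of root elements come from one layer or from one endomorphism of the second factor. -/
theorem conj_type (hgood : Good M pu D) (hb : 3 ≤ finrank F B)
    (hq3 : (∃ t : F, t ≠ 0 ∧ t * t ≠ 1) ∨ 4 ≤ finrank F B) (ha4 : 4 ≤ finrank F A) {w : A} (hw : w ≠ 0)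
    {g : GL (Fin m ⊕ Fin m) F} (hg : g ∈ M) :
    (∃ n : A, n ≠ 0 ∧ ∃ T : Module.End F B, ∀ u, op g (pu w u) = pu n (T u)) ∨
      ∃ U : Submodule F B, 2 ≤ finrank F U ∧ finrank F A * finrank F U = finrank F B ∧
        (∀ u ∈ U, ∀ v ∈ U, s u v = 0) ∧ (∀ u ∈ U, ∀ x, pu x u ∈ LinearMap.range ((op g).comp (pu w))) ∧
        ∀ z ∈ LinearMap.range ((op g).comp (pu w)), ∀ x, D x z ∈ U := by
  classical
  obtain ⟨y, hy, he⟩ := P.conj_root w hg
  have hR := P.root_conj (P.root_layer w) hg
  have hi := P.conj_inj hw g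
  obtain ⟨G, k, hk⟩ := P.quad_pure hgood hb hq3 ha4 hw hR hi hy he
  have hsq : ∀ v, op y (op y v) - op y v - op y v + v = 0 := fun v => by
    have e : op y * op y - op y - op y + 1 = 0 := by
      have := P.quad_sq hR
      rw [he]
      linear_combination (norm := noncomm_ring) this
    exact congrArg (fun f => f v) e
  have hrange := P.range_move hw g he
  have hdim : finrank F (LinearMap.range ((op g).comp (pu w))) = finrank F B := LinearMap.finrank_range_of_inj hi
  rcases P.quad_factor hb hk hsq with ⟨G₁, h1⟩ | ⟨k₁, h1⟩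
  · -- a layer
    refine Or.inl ?_
    have hmem : ∀ x u, pu (G₁ x - x) u ∈ LinearMap.range (op y - 1) := fun x u =>
      ⟨pu x u, by rw [LinearMap.sub_apply, Module.End.one_apply, h1, map_sub, LinearMap.sub_apply]⟩
    obtain ⟨x, hx⟩ : ∃ x, G₁ x - x ≠ 0 := by
      by_contra hc
      push Not at hc
      have h0 : op y - 1 = 0 := P.T.ext_pu fun x u => by
        rw [LinearMap.sub_apply, Module.End.one_apply, h1, LinearMap.zero_apply, sub_eq_zero, sub_eq_zero.mp (hc x)]
      rw [h0, LinearMap.range_zero] at hrange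
      rw [← hrange, finrank_bot] at hdim
      omega
    refine ⟨G₁ x - x, hx, ?_⟩
    have heq : LinearMap.range (pu (G₁ x - x)) = LinearMap.range ((op g).comp (pu w)) := by
      refine Submodule.eq_of_le_of_finrank_eq ?_ ?_
      · rintro _ ⟨u, rfl⟩; rw [← hrange]; exact hmem x u
      · rw [hdim, LinearMap.finrank_range_of_inj fun u v h => P.pu_inj hx h]
    obtain ⟨z, hz⟩ := P.exists_dual hx
    refine ⟨- (D z).comp ((op g).comp (pu w)), fun u => ?_⟩
    obtain ⟨v, hv⟩ := heq.ge ⟨u, rfl⟩
    simp only [LinearMap.neg_apply, LinearMap.comp_apply] at hv ⊢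
    rw [← hv, P.D_pu, P.T.ωswap z, hz, neg_smul, one_smul, neg_neg]
  · refine Or.inr ?_
    set U : Submodule F B := LinearMap.range (k₁ - 1) with hU
    obtain ⟨x₀, hx₀⟩ : ∃ x : A, x ≠ 0 := ⟨w, hw⟩
    have hmem : ∀ u ∈ U, ∀ x, pu x u ∈ LinearMap.range ((op g).comp (pu w)) := by
      rintro _ ⟨u, rfl⟩ x
      rw [← hrange]
      exact ⟨pu x u, by simp [h1]⟩
    have hD : ∀ z ∈ LinearMap.range ((op g).comp (pu w)), ∀ x, D x z ∈ U := by
      intro z hz x
      rw [← hrange] at hz
      obtain ⟨v, rfl⟩ := hz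
      have e : (D x).comp (op y - 1) = (k₁ - 1).comp (D x) := P.T.ext_pu fun x' u => by
        simp [h1, P.D_pu, smul_sub]
      exact ⟨D x v, (congrArg (fun f => f v) e).symm⟩
    have hiso : ∀ u ∈ U, ∀ v ∈ U, s u v = 0 := by
      intro u hu v hv
      obtain ⟨x₁, hx₁⟩ := P.exists_dual hw
      obtain ⟨a, ha⟩ := hmem u hu x₁
      obtain ⟨b, hb'⟩ := hmem v hv w
      have := P.T.form x₁ u w v
      rw [hx₁, one_mul, ← ha, ← hb'] at this
      rw [← this, ← hR.1, hR.2, map_zero, LinearMap.zero_apply]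
    -- the dimension
    let bA := Module.finBasis F A
    let Φ : (Fin (finrank F A) → U) →ₗ[F] V := ∑ i, ((pu (bA i)).comp U.subtype).comp (LinearMap.proj i)
    have hΦ : ∀ f, Φ f = ∑ i, pu (bA i) (f i) := fun f => by simp [Φ]
    have hinj : Function.Injective Φ := (injective_iff_map_eq_zero Φ).mpr fun f hf => by
      funext i
      exact Subtype.ext (P.sum_pu_eq_zero bA.linearIndependent (u := fun i => (f i : B)) (by rw [← hΦ, hf]) i)
    have hr : LinearMap.range Φ = LinearMap.range ((op g).comp (pu w)) := by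
      refine le_antisymm ?_ ?_
      · rintro _ ⟨f, rfl⟩
        rw [hΦ]
        exact Submodule.sum_mem _ fun i _ => hmem _ (f i).2 _
      · rw [← hrange]
        rintro _ ⟨v, rfl⟩
        have hle : ⊤ ≤ Submodule.comap (op y - 1) (LinearMap.range Φ) := by
          intro v _
          have hq : ((LinearMap.range Φ).mkQ).comp (op y - 1) = 0 := P.T.ext_pu fun x u => by
            refine (Submodule.Quotient.mk_eq_zero _).mpr ⟨fun i => bA.repr x i • ⟨(k₁ - 1) u, ⟨u, rfl⟩⟩, ?_⟩
            rw [hΦ]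
            simp only [Submodule.coe_smul, map_smul, LinearMap.sub_apply, Module.End.one_apply, h1]
            rw [show pu x = ∑ i, bA.repr x i • pu (bA i) by simp only [← map_smul, ← map_sum, bA.sum_repr x]]
            simp [smul_sub, Finset.sum_sub_distrib]
          exact (Submodule.Quotient.mk_eq_zero (LinearMap.range Φ)).mp (congrArg (fun f => f v) hq)
        exact hle Submodule.mem_top
    have hfin : finrank F A * finrank F U = finrank F B := by
      rw [← hdim, ← hr, LinearMap.finrank_range_of_inj hinj, Module.finrank_pi_fintype]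
      simp
    refine ⟨U, ?_, hfin, hiso, hmem, hD⟩
    by_contra hlt
    -- one dimension: the isometry would be trivial
    have hU0 : finrank F U ≠ 0 := fun e => by rw [e, mul_zero] at hfin; omega
    have hU1 : finrank F U = 1 := by omega
    obtain ⟨⟨p, hpU⟩, hp0, hspan⟩ := finrank_eq_one_iff'.mp hU1
    have hp : p ≠ 0 := fun e => hp0 (Subtype.ext e)
    have hkiso : ∀ u, s (k₁ u) (k₁ u) = s u u := fun u => by
      obtain ⟨x₁, hx₁⟩ := P.exists_dual hw
      have := P.mem_beta hy (pu x₁ u) (pu w u)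
      rwa [h1, h1, P.T.form, P.T.form, hx₁, one_mul, one_mul] at this
    have hφ : ∀ u, ∃ c : F, k₁ u = u + c • p := fun u => by
      obtain ⟨c, hc⟩ := hspan ⟨(k₁ - 1) u, ⟨u, rfl⟩⟩
      refine ⟨c, ?_⟩
      have := congrArg Subtype.val hc
      simp only [SetLike.val_smul, LinearMap.sub_apply, Module.End.one_apply] at this
      rw [this]; abel
    have hdich : ∀ u, s u p ≠ 0 → k₁ u = u := fun u hu => by
      obtain ⟨c, hc⟩ := hφ u
      have := hkiso u
      simp only [hc, map_add, map_smul, LinearMap.add_apply, LinearMap.smul_apply, hiso p hpU p hpU, P.T.sym p u,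
        smul_eq_mul] at this
      have h0 : c = 0 := (mul_eq_zero.mp (show c * s u p = 0 by
        have : (2 : F) * (c * s u p) = 0 := by linear_combination this
        exact (mul_eq_zero.mp this).resolve_left P.T.two)).resolve_right hu
      rw [hc, h0, zero_smul, add_zero]
    obtain ⟨u₁, hu₁⟩ : ∃ u, s u p ≠ 0 := by
      by_contra hc
      push Not at hc
      exact hp (P.T.snd p fun v => by rw [P.T.sym]; exact hc v)
    obtain ⟨v, hv⟩ := hpU
    have hvfix : k₁ v = v := by
      by_cases h' : s v p = 0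
      · have := hdich (v + u₁) (by rwa [map_add, LinearMap.add_apply, h', zero_add])
        rwa [map_add, hdich u₁ hu₁, add_left_inj] at this
      · exact hdich v h'
    exact hp (by rw [← hv]; simp [hvfix])

/-- Layers are mapped to layers. -/
theorem layer_to_layer (hgood : Good M pu D) (hb : 3 ≤ finrank F B)
    (hq3 : (∃ t : F, t ≠ 0 ∧ t * t ≠ 1) ∨ 4 ≤ finrank F B) (ha4 : 4 ≤ finrank F A) {w : A} (hw : w ≠ 0)
    {g : GL (Fin m ⊕ Fin m) F} (hg : g ∈ M) :
    ∃ n : A, n ≠ 0 ∧ ∃ T : Module.End F B, ∀ u, op g (pu w u) = pu n (T u) := by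
  classical
  rcases P.conj_type hgood hb hq3 ha4 hw hg with h | ⟨U, hU2, hUd, hiso, hmem, hD⟩
  · exact h
  exfalso
  obtain ⟨u₀, hu₀, hu₀0⟩ := Submodule.exists_mem_ne_zero_of_ne_bot
    (show U ≠ ⊥ from fun h => by rw [h, finrank_bot] at hU2; omega)
  -- a reflection moving the subspace
  obtain ⟨x, -, hxL, hx⟩ := exists_nonsingular_notMem s P.T.sym P.T.two ⊤ (LinearMap.ker (s u₀))
    (by
      obtain ⟨u, -, hu⟩ := exists_perp s P.T.sym P.T.two P.T.snd (![] : Fin 0 → B) (fun i => i.elim0)
        (fun i => i.elim0) (by omega)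
      exact ⟨u, Submodule.mem_top, hu⟩)
    (fun h => hu₀0 (P.T.snd _ fun v => h Submodule.mem_top))
  obtain ⟨r, hr, hre⟩ := P.exists_elem 1 (refl s x) (fun _ _ => rfl) (P.T.refl_isom hx)
  have hxU : x ∉ U := fun h => hx (hiso x h x h)
  have hrfix : ∀ u, s u x = 0 → ∀ a, op r (pu a u) = pu a u := fun u hu a => by
    rw [hre, refl_apply, hu]; simp
  set U₁ : Submodule F B := U ⊓ LinearMap.ker (s.flip x) with hU₁
  have hU₁d : finrank F U ≤ finrank F U₁ + 1 := by
    have h1 := LinearMap.finrank_range_add_finrank_ker ((s.flip x).comp U.subtype)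
    have h2 : finrank F (LinearMap.range ((s.flip x).comp U.subtype)) ≤ 1 :=
      (Submodule.finrank_le _).trans (Module.finrank_self F).le
    have h3 : finrank F (LinearMap.ker ((s.flip x).comp U.subtype)) ≤ finrank F U₁ := by
      refine LinearMap.finrank_le_finrank_of_injective
        (f := (U.subtype.comp (LinearMap.ker ((s.flip x).comp U.subtype)).subtype).codRestrict U₁
          fun v => ⟨(v : U).2, v.2⟩) fun v v' h => Subtype.ext (Subtype.ext (congrArg (fun w : U₁ => (w : B)) h :))
    omega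
  set g' := g⁻¹ * r * g with hg'
  have hg'M : g' ∈ M := M.mul_mem (M.mul_mem (M.inv_mem hg) hr) hg
  -- the common part
  have hcommon : ∀ u ∈ U₁, ∀ a, ∃ c, op g (pu w c) = pu a u ∧ op g' (pu w c) = pu w c := by
    intro u hu a
    obtain ⟨c, hc⟩ := hmem u hu.1 a
    rw [LinearMap.comp_apply] at hc
    refine ⟨c, hc, ?_⟩
    rw [hg', op_mul, op_mul, Module.End.mul_apply, Module.End.mul_apply, hc, hrfix u hu.2, ← hc,
      ← Module.End.mul_apply, op_inv_mul, Module.End.one_apply]
  rcases P.conj_type hgood hb hq3 ha4 hw hg'M with ⟨n, hn, T, hT⟩ | ⟨U', -, hUd', -, -, hD'⟩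
  · -- a layer: the reflection would fix the subspace
    obtain ⟨u₁, hu₁, hu₁0⟩ := Submodule.exists_mem_ne_zero_of_ne_bot
      (show U₁ ≠ ⊥ from fun h => by rw [h, finrank_bot] at hU₁d; omega)
    obtain ⟨c, hc, hc'⟩ := hcommon u₁ hu₁ w
    have hc0 : c ≠ 0 := fun e => hu₁0 (P.pu_inj hw (by rw [← hc, e, map_zero, map_zero]))
    rw [hT] at hc'
    by_cases hnw : n ∈ Submodule.span F {w}
    · obtain ⟨e, rfl⟩ := Submodule.mem_span_singleton.mp hnw
      obtain ⟨c₀, hc₀⟩ := hmem u₀ hu₀ w
      rw [LinearMap.comp_apply] at hc₀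
      have e1 : op r (pu w u₀) = op g (pu w (e • T c₀)) := by
        have e2 : pu w (e • T c₀) = op g' (pu w c₀) := by
          rw [hT, map_smul, map_smul, LinearMap.smul_apply]
        rw [e2, hg', op_mul, op_mul, Module.End.mul_apply,
          Module.End.mul_apply, hc₀, ← Module.End.mul_apply (op g), op_mul_inv, Module.End.one_apply]
      obtain ⟨z, hz⟩ := P.exists_dual hw
      have h2 := hD _ ⟨e • T c₀, e1.symm.trans rfl⟩ z
      have h3 : D z (op r (pu w u₀)) ∈ U := h2
      rw [hre, Module.End.one_apply, P.D_pu, P.T.ωswap z w, hz, neg_smul, one_smul, neg_mem_iff, refl_apply,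
        U.sub_mem_iff_right hu₀] at h3
      have hne : s u₀ x ≠ 0 := hxL
      exact hxU ((U.smul_mem_iff (mul_ne_zero (div_ne_zero P.T.two hx) hne)).mp h3)
    · have hli : LinearIndependent F ![n, w] := LinearIndependent.pair_symm_iff.mp
        ((LinearIndependent.pair_iff' hw).mpr fun e he => hnw (Submodule.mem_span_singleton.mpr ⟨e, he⟩))
      exact hc0 (by simpa using P.sum_pu_eq_zero hli (u := ![T c, -c]) (by simp [hc']) 1)
  · -- two subspaces of the second factor
    obtain ⟨z, hz⟩ := P.exists_dual hw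
    let bA := Module.finBasis F A
    let Φ : (Fin (finrank F A) → U₁) →ₗ[F] V := ∑ i, ((pu (bA i)).comp U₁.subtype).comp (LinearMap.proj i)
    have hΦ : ∀ f, Φ f = ∑ i, pu (bA i) (f i) := fun f => by simp [Φ]
    have hinj : Function.Injective Φ := (injective_iff_map_eq_zero Φ).mpr fun f hf => by
      funext i
      exact Subtype.ext (P.sum_pu_eq_zero bA.linearIndependent (u := fun i => (f i : B)) (by rw [← hΦ, hf]) i)
    have hle : LinearMap.range Φ ≤ U'.map ((op g).comp (pu w)) := by
      rintro _ ⟨f, rfl⟩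
      rw [hΦ]
      refine Submodule.sum_mem _ fun i _ => ?_
      obtain ⟨c, hc, hc'⟩ := hcommon _ (f i).2 (bA i)
      refine ⟨c, ?_, hc⟩
      have := hD' (pu w c) ⟨c, hc'⟩ z
      rwa [P.D_pu, P.T.ωswap z w, hz, neg_smul, one_smul, neg_mem_iff] at this
    have h1 := (Submodule.finrank_mono hle).trans (Submodule.finrank_map_le _ _)
    rw [LinearMap.finrank_range_of_inj hinj, Module.finrank_pi_fintype, Finset.sum_const, Finset.card_univ,
      Fintype.card_fin, smul_eq_mul] at h1
    have h2 : finrank F U' = finrank F U := Nat.eq_of_mul_eq_mul_left (by omega) (hUd'.trans hUd.symm)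
    have h3 : finrank F U₁ + 1 ≤ finrank F A * finrank F U₁ := by nlinarith
    have h4 : 4 * finrank F U₁ ≤ finrank F A * finrank F U₁ := Nat.mul_le_mul_right _ ha4
    omega

/-- Everything is a tensor product. -/
theorem pure_of_good (hgood : Good M pu D) (hb : 3 ≤ finrank F B)
    (hq3 : (∃ t : F, t ≠ 0 ∧ t * t ≠ 1) ∨ 4 ≤ finrank F B) (ha4 : 4 ≤ finrank F A)
    {g : GL (Fin m ⊕ Fin m) F} (hg : g ∈ M) : Pu pu g := by
  classical
  obtain ⟨v₀, hv₀⟩ : ∃ v : A, v ≠ 0 := by
    have : Nontrivial A := Module.nontrivial_of_finrank_pos (R := F) (by omega)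
    exact exists_ne 0
  obtain ⟨n₀, hn₀, T, hT⟩ := P.layer_to_layer hgood hb hq3 ha4 hv₀ hg
  obtain ⟨u₀, -, hu₀⟩ := exists_perp s P.T.sym P.T.two P.T.snd (![] : Fin 0 → B) (fun i => i.elim0)
    (fun i => i.elim0) (by omega)
  have hu₀0 : u₀ ≠ 0 := fun h => hu₀ (by rw [h]; simp)
  have hTinj : ∀ u, T u = 0 → u = 0 := fun u hu =>
    P.pu_inj hv₀ (gl_mulVec_injective g (show op g (pu v₀ u) = op g (pu v₀ 0) by rw [hT, hu, map_zero, map_zero, map_zero]))
  have hex : ∀ v, ∃ n, ∀ u, op g (pu v u) = pu n (T u) := by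
    intro v
    by_cases hd : v ∈ Submodule.span F {v₀}
    · obtain ⟨c, rfl⟩ := Submodule.mem_span_singleton.mp hd
      exact ⟨c • n₀, fun u => by simp [hT]⟩
    have hv : v ≠ 0 := fun e => hd (e ▸ Submodule.zero_mem _)
    have hv3 : v + v₀ ≠ 0 := fun e =>
      hd (Submodule.mem_span_singleton.mpr ⟨-1, by rw [neg_one_smul]; exact (eq_neg_of_add_eq_zero_left e).symm⟩)
    have hli : LinearIndependent F ![v, v₀] := LinearIndependent.pair_symm_iff.mp
      ((LinearIndependent.pair_iff' hv₀).mpr fun a e => hd (Submodule.mem_span_singleton.mpr ⟨a, e⟩))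
    obtain ⟨n, hn, T', hT'⟩ := P.layer_to_layer hgood hb hq3 ha4 hv hg
    obtain ⟨n₃, hn₃, T₃, hT₃⟩ := P.layer_to_layer hgood hb hq3 ha4 hv3 hg
    have hsum : ∀ u, pu n₃ (T₃ u) = pu n (T' u) + pu n₀ (T u) := fun u => by
      rw [← hT', ← hT, ← hT₃, map_add pu, LinearMap.add_apply, map_add]
    have hind : LinearIndependent F ![n, n₀] := by
      refine LinearIndependent.pair_symm_iff.mp ((LinearIndependent.pair_iff' hn₀).mpr fun a ha => ?_)
      -- otherwise two layers have the same image
      have hsurj : Function.Surjective T :=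
        LinearMap.injective_iff_surjective.mp ((injective_iff_map_eq_zero T).mpr hTinj)
      obtain ⟨u', hu'⟩ := hsurj (a • T' u₀)
      have : pu v u₀ = pu v₀ u' := gl_mulVec_injective g (show op g _ = op g _ by
        rw [hT', hT, ← ha, hu', map_smul, LinearMap.smul_apply, map_smul])
      exact hu₀0 (by simpa using P.sum_pu_eq_zero hli (u := ![u₀, -u']) (by simp [this]) 0)
    by_cases hd3 : n₃ ∈ Submodule.span F (Set.range ![n, n₀])
    · rw [Submodule.mem_span_range_iff_exists_fun] at hd3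
      obtain ⟨c, hc⟩ := hd3
      rw [Fin.sum_univ_two] at hc
      simp only [Matrix.cons_val_zero, Matrix.cons_val_one] at hc
      have key : ∀ u, c 0 • T₃ u = T' u ∧ c 1 • T₃ u = T u := fun u => by
        have h0 := P.sum_pu_eq_zero hind (u := ![c 0 • T₃ u - T' u, c 1 • T₃ u - T u]) (by
          rw [Fin.sum_univ_two]
          simp only [Matrix.cons_val_zero, Matrix.cons_val_one, map_sub, map_smul]
          have := hsum u
          rw [← hc, map_add, map_smul, map_smul, LinearMap.add_apply, LinearMap.smul_apply,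
            LinearMap.smul_apply] at this
          linear_combination (norm := module) this)
        exact ⟨sub_eq_zero.mp (h0 0), sub_eq_zero.mp (h0 1)⟩
      have hc1 : c 1 ≠ 0 := fun e => hu₀0 (hTinj _ (by rw [← (key u₀).2, e, zero_smul]))
      refine ⟨(c 0 / c 1) • n, fun u => ?_⟩
      rw [hT', map_smul, LinearMap.smul_apply, ← map_smul, ← (key u).1, ← (key u).2, smul_smul,
        div_mul_cancel₀ _ hc1]
    · exfalso
      have hli3 : LinearIndependent F (Fin.cons n₃ ![n, n₀] : Fin 3 → A) :=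
        linearIndependent_finCons.mpr ⟨hind, hd3⟩
      have := P.sum_pu_eq_zero hli3 (u := Fin.cons (T₃ u₀) ![- T' u₀, - T u₀]) (by
        rw [Fin.sum_univ_three]
        show pu n₃ (T₃ u₀) + pu n (- T' u₀) + pu n₀ (- T u₀) = 0
        rw [hsum, map_neg, map_neg]
        abel) 2
      exact hu₀0 (hTinj _ (neg_eq_zero.mp this))
  choose n hn using hex
  have hTu : T u₀ ≠ 0 := fun e => hu₀0 (hTinj _ e)
  let G : Module.End F A :=
    { toFun := n
      map_add' := fun a b => P.pu_left_inj hTu (by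
        rw [← hn, map_add pu, LinearMap.add_apply, map_add, hn, hn, map_add, LinearMap.add_apply])
      map_smul' := fun c a => P.pu_left_inj hTu (by
        rw [← hn, map_smul pu, LinearMap.smul_apply, map_smul, hn, RingHom.id_apply, map_smul,
          LinearMap.smul_apply]) }
  exact ⟨G, T, hn⟩

end Cfsg.Agent.H1.SpT.ST
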