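import Cfsg.Agent.H1.SpT.Nilpotent
import Cfsg.Agent.H29.OddQuadratic
import Cfsg.Agent.S0205

/-!
A quadratic element is a tensor product: the case of an involution in the group it generates with a root
element of a layer.
-/

set_option autoImplicit false
set_option linter.unusedSectionVars false

namespace Cfsg.Agent.H1.SpT

open scoped Matrix
open Cfsg.Agent.H98 Cfsg.Agent.H25.GeoLists Module

attribute [-simp] Cfsg.Agent.H2.sympBilin_apply

/-- In the group generated by `1 + α` and `1 + n` with `α`, `n` of square zero, the involutions commute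
with `α` and `n`. -/
theorem involution_central {F R : Type*} [Field F] [Ring R] [Algebra F R] (h2 : (2 : F) ≠ 0) {al n : R}
    (ha : al * al = 0) (hn : n * n = 0) {G : Type*} [Group G] (φ : G →* R) {a y : G} (hfa : φ a = 1 + al)
    (hfy : φ y = 1 + n) {z : G} (hz : z ∈ Subgroup.closure ({a, y} : Set G)) (hz2 : z * z = 1) :
    φ z * al = al * φ z ∧ φ z * n = n * φ z := by
  set t := al * n + n * al with ht
  have hat : al * t = t * al := by
    simp only [ht, mul_add, add_mul, ← mul_assoc, ha, zero_mul, zero_add]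
    simp [mul_assoc, ha]
  have hnt : n * t = t * n := by
    simp only [ht, mul_add, add_mul, ← mul_assoc, hn, zero_mul, add_zero]
    simp [mul_assoc, hn]
  let Z : Subring R := Subring.centralizer (Set.centralizer ({t} : Set R))
  have htc : t ∈ Set.centralizer ({t} : Set R) := by simp [Set.mem_centralizer_iff]
  have hac : al ∈ Set.centralizer ({t} : Set R) := by simp [Set.mem_centralizer_iff, hat]
  have hnc : n ∈ Set.centralizer ({t} : Set R) := by simp [Set.mem_centralizer_iff, hnt]
  have hZ : ∀ c ∈ Z, ∀ r ∈ Set.centralizer ({t} : Set R), r * c = c * r := fun c hc r hr => hc r hr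
  have hZc : ∀ c ∈ Z, c ∈ Set.centralizer ({t} : Set R) := fun c hc => by
    simp only [Set.mem_centralizer_iff, Set.mem_singleton_iff, forall_eq]
    exact hZ c hc t htc
  have htZ : t ∈ Z := fun r hr => (hr t rfl).symm
  letI : CommRing Z :=
    { (inferInstance : Ring Z) with mul_comm := fun x y => Subtype.ext (hZ _ y.2 _ (hZc _ x.2)) }
  let τ : Z := ⟨t, htZ⟩
  let ev : Z → Z → Z → Z → R := fun f₀ f₁ f₂ f₃ =>
    (f₀ : R) + (f₁ : R) * al + (f₂ : R) * n + (f₃ : R) * (al * n)
  have hmul : ∀ f₀ f₁ f₂ f₃ g₀ g₁ g₂ g₃ : Z, ev f₀ f₁ f₂ f₃ * ev g₀ g₁ g₂ g₃ =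
      ev (f₀ * g₀ + τ * f₂ * g₁) (f₀ * g₁ + f₁ * g₀ + τ * f₃ * g₁) (f₀ * g₂ + f₂ * g₀ + τ * f₂ * g₃)
        (f₀ * g₃ + f₃ * g₀ + f₁ * g₂ - f₂ * g₁ + τ * f₃ * g₃) := by
    intro f₀ f₁ f₂ f₃ g₀ g₁ g₂ g₃
    have ea : ∀ c : Z, al * (c : R) = c * al := fun c => hZ _ c.2 _ hac
    have en : ∀ c : Z, n * (c : R) = c * n := fun c => hZ _ c.2 _ hnc
    have et : ∀ c : Z, (c : R) * t = t * c := fun c => (hZ _ c.2 _ htc).symm
    have hna : n * al = t - al * n := by rw [ht]; abel
    have hea : al * n * al = t * al := by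
      rw [mul_assoc, hna, mul_sub, ← mul_assoc al al, ha, zero_mul, sub_zero, hat]
    have hne : n * (al * n) = t * n := by
      rw [← mul_assoc, hna, sub_mul, mul_assoc al, hn, mul_zero, sub_zero]
    have hae : al * (al * n) = 0 := by rw [← mul_assoc, ha, zero_mul]
    have hen : al * n * n = 0 := by rw [mul_assoc, hn, mul_zero]
    have hee : al * n * (al * n) = t * (al * n) := by rw [← mul_assoc, hea, mul_assoc]
    have pull : ∀ (X : R) (f g : Z) (Y : R), X * (g : R) = g * X →
        (f : R) * X * ((g : R) * Y) = ((f * g : Z) : R) * (X * Y) := fun X f g Y h => by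
      rw [Subring.coe_mul, mul_assoc, ← mul_assoc X, h]; noncomm_ring
    have ee : ∀ c : Z, al * n * (c : R) = c * (al * n) := fun c => by
      rw [mul_assoc, en, ← mul_assoc, ea, mul_assoc]
    simp only [ev, add_mul, mul_add, pull al _ _ _ (ea _), pull n _ _ _ (en _), pull (al * n) _ _ _ (ee _)]
    simp only [ha, hn, hna, hea, hne, hae, hen, hee, mul_zero, add_zero, mul_assoc, ea, en, ee,
      Subring.coe_add, AddSubgroupClass.coe_sub, Subring.coe_mul]
    simp only [mul_sub, ← mul_assoc, et]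
    show _ = _
    simp only [τ, add_mul, sub_mul, mul_assoc, et]
    abel
  have hP : ∀ g ∈ Subgroup.closure ({a, y} : Set G), ∃ f₀ f₁ f₂ f₃ : Z,
      φ g = ev f₀ f₁ f₂ f₃ ∧ φ g⁻¹ = ev (f₀ + τ * f₃) (-f₁) (-f₂) (-f₃) := by
    intro g hg
    induction hg using Subgroup.closure_induction with
    | mem g hg =>
      rcases hg with rfl | rfl
      · refine ⟨1, 1, 0, 0, by simp [ev, hfa], ?_⟩
        refine left_inv_eq_right_inv (a := φ g) (by rw [← map_mul, inv_mul_cancel, map_one]) ?_
        simp [ev, hfa, add_mul, mul_add, ha]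
      · refine ⟨1, 0, 1, 0, by simp [ev, hfy], ?_⟩
        refine left_inv_eq_right_inv (a := φ g) (by rw [← map_mul, inv_mul_cancel, map_one]) ?_
        simp [ev, hfy, add_mul, mul_add, hn]
    | one => exact ⟨1, 0, 0, 0, by simp [ev], by simp [ev]⟩
    | mul g g' _ _ hg hg' =>
      obtain ⟨f₀, f₁, f₂, f₃, e, ei⟩ := hg
      obtain ⟨g₀, g₁, g₂, g₃, e', ei'⟩ := hg'
      refine ⟨_, _, _, _, (map_mul φ g g').trans (by rw [e, e']; exact hmul _ _ _ _ _ _ _ _), ?_⟩
      rw [mul_inv_rev, map_mul, ei, ei', hmul]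
      congr 1 <;> ring
    | inv g _ hg =>
      obtain ⟨f₀, f₁, f₂, f₃, e, ei⟩ := hg
      refine ⟨_, _, _, _, ei, ?_⟩
      rw [inv_inv, e]
      congr 1 <;> ring
  obtain ⟨f₀, f₁, f₂, f₃, e, ei⟩ := hP z hz
  rw [inv_eq_of_mul_eq_one_right hz2] at ei
  have key : φ z + φ z = ((f₀ + f₀ + τ * f₃ : Z) : R) := by
    conv_lhs => arg 1; rw [e]
    conv_lhs => arg 2; rw [ei]
    simp only [ev, Subring.coe_add, Subring.coe_neg, neg_mul]
    abel
  have comm : ∀ r ∈ Set.centralizer ({t} : Set R), φ z * r = r * φ z := by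
    intro r hr
    have hc := hZ _ (f₀ + f₀ + τ * f₃ : Z).2 r hr
    rw [← key, mul_add, add_mul] at hc
    have h : (2 : F) • (r * φ z - φ z * r) = 0 := by
      rw [two_smul, sub_add_sub_comm, hc, sub_self]
    exact (sub_eq_zero.mp ((smul_eq_zero.mp h).resolve_left h2)).symm
  exact ⟨comm al hac, comm n hnc⟩

variable {m : ℕ} {F : Type*} [Field F] {A B : Type*} [AddCommGroup A] [Module F A] [AddCommGroup B] [Module F B]
variable {M : Subgroup (GL (Fin m ⊕ Fin m) F)} {ω : A →ₗ[F] A →ₗ[F] F} {s : B →ₗ[F] B →ₗ[F] F}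
  {pu : A →ₗ[F] B →ₗ[F] (Fin m ⊕ Fin m → F)} {C : B →ₗ[F] (Fin m ⊕ Fin m → F) →ₗ[F] A}
  {D : A →ₗ[F] (Fin m ⊕ Fin m → F) →ₗ[F] B}
  [Fintype F] [FiniteDimensional F A] [FiniteDimensional F B]

local notation "V" => (Fin m ⊕ Fin m → F)
local notation "β" => Cfsg.Agent.H2.sympBilin m F

/-- The linear maps as a homomorphism. -/
def opHom : GL (Fin m ⊕ Fin m) F →* Module.End F (Fin m ⊕ Fin m → F) where
  toFun := op
  map_one' := op_one
  map_mul' := op_mul

/-- A subspace of a non-degenerate one on which the form vanishes has at most half its dimension. -/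
theorem two_mul_finrank_le_of_isotropic {X Y : Submodule F (Fin m ⊕ Fin m → F)} (hXY : X ≤ Y)
    (hY : ∀ y ∈ Y, (∀ z ∈ Y, Cfsg.Agent.H2.sympBilin m F y z = 0) → y = 0)
    (hX : ∀ u ∈ X, ∀ v ∈ X, Cfsg.Agent.H2.sympBilin m F u v = 0) : 2 * finrank F X ≤ finrank F Y := by
  let X' : Submodule F Y := X.comap Y.subtype
  let Ψ : X →ₗ[F] Module.Dual F Y :=
    (Cfsg.Agent.H2.sympBilin m F : _ →ₗ[F] _ →ₗ[F] F).compl₁₂ X.subtype Y.subtype
  have hinj : Function.Injective Ψ := (injective_iff_map_eq_zero Ψ).mpr fun x hx =>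
    Subtype.ext (hY x (hXY x.2) fun z hz => congrArg (fun f => f ⟨z, hz⟩) hx)
  have h1 : finrank F X ≤ finrank F X'.dualAnnihilator := by
    rw [← LinearMap.finrank_range_of_inj hinj]
    refine Submodule.finrank_mono ?_
    rintro _ ⟨x, rfl⟩
    rw [Submodule.mem_dualAnnihilator]
    exact fun v hv => hX x x.2 v hv
  have h2 := Subspace.finrank_add_finrank_dualAnnihilator_eq X'
  have h3 : finrank F X' = finrank F X := (Submodule.comapSubtypeEquivOfLe hXY).finrank_eq
  omega

theorem finrank_three_family {ι : Type*} [Fintype ι] {S : ι → Submodule F B} {W : Submodule F V}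
    (Φ : (∀ i, S i) →ₗ[F] V) (hinj : Function.Injective Φ) (hle : ∀ x, Φ x ∈ W) :
    ∑ i, finrank F (S i) ≤ finrank F W := by
  rw [← Module.finrank_pi_fintype F]
  exact LinearMap.finrank_le_finrank_of_injective (f := Φ.codRestrict W hle)
    fun x y h => hinj (congrArg Subtype.val h)

namespace ST

variable (P : ST M ω s pu C D)
include P

theorem pu_left_inj {x x' : A} {u : B} (hu : u ≠ 0) (h : pu x u = pu x' u) : x = x' :=
  P.T.ωext fun z => smul_left_injective F hu (by
    show ω x z • u = ω x' z • u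
    have := congrArg (D z) h
    rwa [P.D_pu, P.D_pu] at this)

/-- Combinations of pure tensors with independent first parts vanish only trivially. -/
theorem sum_pu_eq_zero {ι : Type*} [Fintype ι] {a : ι → A} (ha : LinearIndependent F a) {u : ι → B}
    (h : ∑ i, pu (a i) (u i) = 0) (i : ι) : u i = 0 := by
  refine (Module.forall_dual_apply_eq_zero_iff F _).mp fun φ => ?_
  have h0 : ∑ j, φ (u j) • a j = 0 := P.T.ωnd _ fun x => by
    have := congrArg (fun v => φ (D x v)) h
    simp only [map_sum, P.D_pu, map_smul, smul_eq_mul, map_zero] at this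
    simp only [map_sum, map_smul, LinearMap.sum_apply, LinearMap.smul_apply, smul_eq_mul]
    simpa [mul_comm] using this
  exact Fintype.linearIndependent_iff.mp ha _ h0 i

/-- A product of two quadratic elements of `p`-power order makes the coefficient nilpotent. -/
theorem nilpotent_of_pgroup {w : A} (hw : w ≠ 0) {K : B →ₗ[F] V} {L : V →ₗ[F] B} (hR : Root s K L)
    {a y : GL (Fin m ⊕ Fin m) F} (hea : op a = 1 + lay pu D w 1) (hea' : op a⁻¹ = 1 - lay pu D w 1)
    (he : op y = 1 + K.comp L) {p : ℕ} [Fact p.Prime] (hp : (p : F) = 0) {k : ℕ}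
    (hk : (a * y) ^ p ^ k = 1) : ∃ n : ℕ, (D w ∘ₗ K.comp L ∘ₗ pu w : Module.End F B) ^ (2 ^ n) = 0 := by
  set N : Module.End F V := K.comp L with hN
  set al := lay pu D w 1 with hal
  set S : Module.End F B := D w ∘ₗ K.comp L ∘ₗ pu w with hS
  set d : Module.End F V := op (a * y) - 1 with hd
  have hp0 : ((p : ℕ) : Module.End F V) = 0 := by
    rw [← map_natCast (algebraMap F (Module.End F V)), hp, map_zero]
  have hd0 : d ^ p ^ k = 0 := by
    obtain ⟨r, hr⟩ := (Commute.one_left d).exists_add_pow_prime_pow_eq (Fact.out (p := p.Prime)) k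
    have e : (1 + d) ^ p ^ k = 1 := by
      rw [hd, add_sub_cancel, show op (a * y) = opHom (a * y) from rfl, ← map_pow, hk, map_one]
    rw [e, one_pow, hp0] at hr
    simpa using hr
  set t := al * N + N * al with ht
  have hay : op (a * y)⁻¹ = 1 - N - al + N * al := by
    rw [mul_inv_rev, op_mul, P.quad_inv hR he, hea', sub_mul, one_mul, mul_sub, mul_one, ← hN]
    abel
  have htd : t = op (a * y)⁻¹ * (d * d) := by
    have e1 : op (a * y)⁻¹ * (d * d) = op (a * y) + op (a * y)⁻¹ - 1 - 1 := by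
      have hgg : op (a * y)⁻¹ * (op (a * y) * op (a * y)) = op (a * y) := by
        rw [← mul_assoc, op_inv_mul, one_mul]
      simp only [hd, mul_sub, sub_mul, mul_one, one_mul, hgg, op_inv_mul]
      abel
    rw [e1, hay, op_mul, hea, he, ht, add_mul, one_mul, mul_add, mul_one]
    abel
  have hcomm : Commute (op (a * y)⁻¹) (d * d) := by
    have h1 : Commute (op (a * y)⁻¹) (op (a * y)) := by
      show _ * _ = _ * _
      rw [op_inv_mul, op_mul_inv]
    have h2 : Commute (op (a * y)⁻¹) d := h1.sub_right (Commute.one_right _)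
    exact h2.mul_right h2
  have htn : t ^ p ^ k = 0 := by
    rw [htd, hcomm.mul_pow, (Commute.refl d).mul_pow, hd0, zero_mul, mul_zero]
  have hpow : ∀ j, al * t ^ j = lay pu D w (S ^ j) := by
    intro j
    induction j with
    | zero => rw [pow_zero, pow_zero, mul_one]
    | succ j ih =>
      rw [pow_succ, ← mul_assoc, ih]
      refine LinearMap.ext fun v => ?_
      simp only [ht, hal, Module.End.mul_apply, LinearMap.add_apply, lay_apply, map_add, P.D_self, map_zero,
        zero_add, pow_succ, Module.End.one_apply]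
      rfl
  refine ⟨p ^ k, ?_⟩
  have h0 : S ^ p ^ k = 0 := by
    refine P.lay_inj hw ?_
    rw [← hpow, htn, mul_zero]
    exact LinearMap.ext fun v => by simp [lay_apply]
  exact pow_eq_zero_of_le Nat.lt_two_pow_self.le h0

/-- If the coefficient is not nilpotent, there is an involution commuting with both elements. -/
theorem exists_involution {w : A} (hw : w ≠ 0) {K : B →ₗ[F] V} {L : V →ₗ[F] B} (hR : Root s K L)
    {a y : GL (Fin m ⊕ Fin m) F} (hea : op a = 1 + lay pu D w 1) (hea' : op a⁻¹ = 1 - lay pu D w 1)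
    (he : op y = 1 + K.comp L)
    (hS : ∀ n : ℕ, (D w ∘ₗ K.comp L ∘ₗ pu w : Module.End F B) ^ (2 ^ n) ≠ 0) :
    ∃ z ∈ Subgroup.closure ({a, y} : Set (GL (Fin m ⊕ Fin m) F)), z ≠ 1 ∧ z * z = 1 ∧
      op z * lay pu D w 1 = lay pu D w 1 * op z ∧ op z * K.comp L = K.comp L * op z := by
  classical
  set G := Subgroup.closure ({a, y} : Set (GL (Fin m ⊕ Fin m) F)) with hG
  obtain ⟨p, hp⟩ := CharP.exists F
  have hpp : p.Prime := (CharP.char_is_prime_or_zero F p).resolve_right fun h0 => by
    subst h0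
    haveI := CharP.charP_to_charZero F
    exact not_finite F
  haveI := Fact.mk hpp
  have hpF : (p : F) = 0 := CharP.cast_eq_zero F p
  have hp2 : p ≠ 2 := fun h => P.T.two (by rw [← hpF, h]; norm_num)
  by_cases heven : Even (Nat.card G)
  · obtain ⟨⟨z, hz⟩, ho⟩ := exists_prime_orderOf_dvd_card' (G := G) 2 (even_iff_two_dvd.mp heven)
    have hz2 : z * z = 1 := by
      have := pow_orderOf_eq_one (⟨z, hz⟩ : G)
      rw [ho, pow_two] at this
      exact congrArg Subtype.val this
    have hz1 : z ≠ 1 := fun h => by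
      have h' : (⟨z, hz⟩ : G) = 1 := Subtype.ext h
      rw [h', orderOf_one] at ho
      omega
    obtain ⟨h1, h2⟩ := involution_central (F := F) P.T.two (P.lay_mul_lay w 1 1) (P.quad_sq hR) opHom
      (show opHom a = _ from hea) (show opHom y = _ from he) hz hz2
    exact ⟨z, hz, hz1, hz2, h1, h2⟩
  exfalso
  have hodd : Odd (Nat.card G) := Nat.not_even_iff_odd.mp heven
  -- transport to automorphisms of the additive group
  let Φ₀ : Module.End F V →* AddMonoid.End V :=
    { toFun := fun f => f.toAddMonoidHom, map_one' := rfl, map_mul' := fun _ _ => rfl }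
  let Φ : GL (Fin m ⊕ Fin m) F →* (AddMonoid.End V)ˣ := (Φ₀.comp opHom).toHomUnits
  have hinj : Function.Injective Φ := fun g h e => op_inj (LinearMap.ext fun v =>
    congrArg (fun f : (AddMonoid.End V)ˣ => (f : AddMonoid.End V) v) e)
  have himg : G.map Φ = Subgroup.closure ({Φ a, Φ y} : Set (AddMonoid.End V)ˣ) := by
    rw [hG, MonoidHom.map_closure, Set.image_pair]
  have eq' := G.equivMapOfInjective Φ hinj
  rw [himg] at eq'
  haveI : Group.IsSolvable G := Cfsg.Agent.S0205.result hodd
  haveI : Group.IsSolvable (Subgroup.closure ({Φ a, Φ y} : Set (AddMonoid.End V)ˣ)) :=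
    Group.isSolvable_of_isSolvable_injective (f := eq'.symm.toMonoidHom) eq'.symm.injective
  have hexp : ∀ v : V, p • v = 0 := fun v => by rw [← Nat.cast_smul_eq_nsmul F, hpF, zero_smul]
  have hpg := Cfsg.Agent.H29.isPGroup_closure_of_quadratic_pair hp2 hexp (Φ a) (Φ y)
    (AddMonoidHom.ext fun v => by
      show op a (op a v - v) - (op a v - v) = 0
      rw [hea]
      simp [lay_apply, P.D_self])
    (AddMonoidHom.ext fun v => by
      show op y (op y v - v) - (op y v - v) = 0
      rw [he]
      simp [hR.2])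
    (by rw [← Nat.card_congr eq'.toEquiv]; exact hodd)
  obtain ⟨k, hk⟩ := (hpg.of_equiv eq'.symm) ⟨a * y, G.mul_mem (Subgroup.subset_closure (by simp))
    (Subgroup.subset_closure (by simp))⟩
  obtain ⟨n, hn⟩ := P.nilpotent_of_pgroup hw hR hea hea' he hpF (congrArg Subtype.val hk)
  exact hS n hn

/-- An involution commuting with the two elements makes the quadratic element a tensor product. -/
theorem pure_of_involution (hgood : Good M pu D) (hb : 3 ≤ finrank F B)
    (hq3 : (∃ t : F, t ≠ 0 ∧ t * t ≠ 1) ∨ 4 ≤ finrank F B) (ha4 : 4 ≤ finrank F A) {w : A} (hw : w ≠ 0)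
    {K : B →ₗ[F] V} {L : V →ₗ[F] B} (hR : Root s K L)
    {a y : GL (Fin m ⊕ Fin m) F} (ha : a ∈ M) (hy : y ∈ M) (hea : op a = 1 + lay pu D w 1)
    (he : op y = 1 + K.comp L) {z : GL (Fin m ⊕ Fin m) F}
    (hz : z ∈ Subgroup.closure ({a, y} : Set (GL (Fin m ⊕ Fin m) F))) (hz1 : z ≠ 1) (hz2 : z * z = 1)
    (hzal : op z * lay pu D w 1 = lay pu D w 1 * op z) (hzn : op z * K.comp L = K.comp L * op z)
    (hKinj : Function.Injective K) : Pu pu y := by
  classical
  have h2 := P.T.two
  set N : Module.End F V := K.comp L with hN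
  have hzM : z ∈ M := (Subgroup.closure_le M).mpr (by
    rintro g (rfl | rfl)
    · exact ha
    · exact hy) hz
  obtain ⟨x₁, hx⟩ := P.exists_dual hw
  obtain ⟨⟨G₀, k₀, hG₀⟩, T, hT⟩ := P.commutes_pure hgood hb hq3 hw hzM hzal
  have hzz : ∀ v, op z (op z v) = v := fun v => by
    rw [← Module.End.mul_apply, ← op_mul, hz2, op_one, Module.End.one_apply]
  have hT2 : ∀ u, T (T u) = u := fun u => P.pu_inj hw (by rw [← hT, ← hT, hzz])
  set ε := - ω (G₀ w) x₁ with hε
  have hTk : ∀ u, T u = ε • k₀ u := fun u => by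
    have := congrArg (D x₁) ((hG₀ w u).symm.trans (hT u))
    rw [P.D_pu, P.D_pu, P.T.ωswap x₁ w, hx, neg_smul, one_smul] at this
    rw [hε, neg_smul, this, neg_neg]
  obtain ⟨u₀, -, hu₀⟩ := exists_perp s P.T.sym h2 P.T.snd (![] : Fin 0 → B) (fun i => i.elim0)
    (fun i => i.elim0) (by omega)
  have hu₀0 : u₀ ≠ 0 := fun h => hu₀ (by rw [h]; simp)
  have hTu₀ : T u₀ ≠ 0 := fun h => hu₀0 (by rw [← hT2 u₀, h, map_zero])
  have hε0 : ε ≠ 0 := fun h => hTu₀ (by rw [hTk, h, zero_smul])
  set G : Module.End F A := ε⁻¹ • G₀ with hGdef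
  have hG : ∀ x u, op z (pu x u) = pu (G x) (T u) := fun x u => by
    rw [hG₀, hTk]
    simp only [hGdef, LinearMap.smul_apply, map_smul, smul_smul, mul_inv_cancel₀ hε0, one_smul]
  have hGw : G w = w := P.pu_left_inj hTu₀ ((hG w u₀).symm.trans (hT u₀))
  have hG2 : ∀ x, G (G x) = x := fun x => P.pu_left_inj hu₀0 (by
    calc pu (G (G x)) u₀ = op z (op z (pu x u₀)) := by rw [hG, hG, hT2]
      _ = pu x u₀ := hzz _)
  set μ := s (T u₀) (T u₀) / s u₀ u₀ with hμdef
  have hμ : ∀ x x', ω (G x) (G x') * μ = ω x x' := fun x x' => by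
    have := P.mem_beta hzM (pu x u₀) (pu x' u₀)
    rw [hG, hG, P.T.form, P.T.form] at this
    rw [hμdef, mul_div_assoc', this, mul_div_assoc, div_self hu₀, mul_one]
  -- the moved space
  set f : Module.End F V := 1 - op z with hf
  set Vm : Submodule F V := LinearMap.range f with hV
  set W' : Submodule F V := LinearMap.range ((pu w).comp (1 - T)) with hW
  set K' : Submodule F V := LinearMap.range f ⊓ LinearMap.range K with hK'
  have hff : ∀ v, f (f v) = (2 : F) • f v := fun v => by
    simp only [hf, LinearMap.sub_apply, Module.End.one_apply, map_sub, hzz]; module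
  have hfw : ∀ u, f (pu w u) = pu w ((1 - T) u) := fun u => by
    simp [hf, hT]
  have hWV : W' ≤ Vm := by
    rintro _ ⟨u, rfl⟩
    exact ⟨pu w u, hfw u⟩
  have hgen : ∀ g ∈ Subgroup.closure ({a, y} : Set (GL (Fin m ⊕ Fin m) F)), ∀ v,
      op g v - v ∈ LinearMap.range (pu w) ⊔ LinearMap.range K := by
    intro g hg
    induction hg using Subgroup.closure_induction with
    | mem g hg =>
      intro v
      rcases hg with rfl | rfl
      · rw [hea, LinearMap.add_apply, Module.End.one_apply, add_sub_cancel_left]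
        exact Submodule.mem_sup_left ⟨D w v, rfl⟩
      · rw [he, LinearMap.add_apply, Module.End.one_apply, add_sub_cancel_left]
        exact Submodule.mem_sup_right ⟨L v, rfl⟩
    | one => intro v; rw [op_one, Module.End.one_apply, sub_self]; exact zero_mem _
    | mul g h _ _ hg hh =>
      intro v
      have e : op (g * h) v - v = (op g (op h v) - op h v) + (op h v - v) := by
        rw [op_mul, Module.End.mul_apply]; abel
      rw [e]
      exact add_mem (hg _) (hh _)
    | inv g _ hg =>
      intro v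
      have := hg (op g⁻¹ v)
      rw [← Module.End.mul_apply, op_mul_inv, Module.End.one_apply] at this
      have h' := neg_mem this
      rwa [neg_sub] at h'
  have hLsurj : ∀ v, f (N v) = N (f v) := fun v => by
    have := congrArg (fun g => g v) hzn
    simp only [Module.End.mul_apply] at this
    simp only [hf, LinearMap.sub_apply, Module.End.one_apply, map_sub, this]
  have hle : Vm ≤ W' ⊔ K' := by
    rintro _ ⟨v, rfl⟩
    have hz' : ∀ v', f v' ∈ LinearMap.range (pu w) ⊔ LinearMap.range K := fun v' => by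
      have := neg_mem (hgen z hz v')
      rwa [neg_sub] at this
    obtain ⟨p₁, ⟨u, hu⟩, p₂, ⟨u', hu'⟩, hsum⟩ := Submodule.mem_sup.mp (hz' v)
    have h3 : (2 : F) • f v = pu w ((1 - T) u) + f p₂ := by
      rw [← hff, ← hsum, map_add, ← hu, hfw]
    have h4 : f p₂ ∈ K' := by
      refine ⟨⟨p₂, rfl⟩, ?_⟩
      obtain ⟨q, hq⟩ : ∃ q, L q = u' := by
        refine LinearMap.range_eq_top.mp ?_ u'
        by_contra hne
        obtain ⟨φ, hφ, hφ0⟩ := Submodule.exists_dual_map_eq_bot_of_lt_top (lt_top_iff_ne_top.mpr hne) inferInstance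
        have hsN : LinearMap.BilinForm.Nondegenerate s :=
          ⟨P.T.snd, fun v hv => P.T.snd v fun u => by rw [P.T.sym]; exact hv u⟩
        set b := (LinearMap.BilinForm.toDual s hsN).symm φ with hb'
        have hb0 : ∀ v', s b (L v') = 0 := fun v' => by
          rw [hb', LinearMap.BilinForm.apply_toDual_symm_apply]
          have : φ (L v') ∈ Submodule.map φ (LinearMap.range L) := ⟨L v', ⟨v', rfl⟩, rfl⟩
          rwa [hφ0, Submodule.mem_bot] at this
        have hKb : K b = 0 := (Cfsg.Agent.H2.sympBilin_nondegenerate m F).2 _ fun v' => by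
          rw [← hR.1, P.T.sym]; exact hb0 v'
        exact hφ (by
          have hinjb : b = 0 := hKinj (hKb.trans (map_zero K).symm)
          rw [hb'] at hinjb
          simpa using congrArg (LinearMap.BilinForm.toDual s hsN) hinjb)
      have e : f p₂ = N (f q) := by rw [← hLsurj, ← hu', ← hq]; rfl
      rw [e]
      exact ⟨L (f q), rfl⟩
    have := (Submodule.add_mem_sup (show pu w ((1 - T) u) ∈ W' from ⟨u, rfl⟩) h4)
    rw [← h3] at this
    exact ((W' ⊔ K').smul_mem_iff h2).mp this
  have hVnd : ∀ p ∈ Vm, (∀ q ∈ Vm, β p q = 0) → p = 0 := by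
    rintro _ ⟨v, rfl⟩ hq
    refine (Cfsg.Agent.H2.sympBilin_nondegenerate m F).1 _ fun q => ?_
    have hadj : ∀ u u', β (op z u) u' = β u (op z u') := fun u u' => by
      conv_lhs => rw [← hzz u']
      rw [P.mem_beta hzM]
    have h1 : β (f v) (f q) = β (f (f v)) q := by
      simp only [hf, LinearMap.sub_apply, Module.End.one_apply, map_sub, LinearMap.sub_apply, hadj]
    have := hq (f q) ⟨q, rfl⟩
    rw [h1, hff, map_smul, LinearMap.smul_apply, smul_eq_mul] at this
    exact (mul_eq_zero.mp this).resolve_left h2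
  have hWiso : ∀ u ∈ W', ∀ v ∈ W', β u v = 0 := by
    rintro _ ⟨u, rfl⟩ _ ⟨v, rfl⟩
    simp [P.T.form, P.T.alt]
  have hKiso : ∀ u ∈ K', ∀ v ∈ K', β u v = 0 := by
    rintro _ ⟨-, u, rfl⟩ _ ⟨-, v, rfl⟩
    rw [← hR.1, hR.2, map_zero, LinearMap.zero_apply]
  have d1 := two_mul_finrank_le_of_isotropic hWV hVnd hWiso
  have d2 := two_mul_finrank_le_of_isotropic (X := K') (Y := Vm) inf_le_left hVnd hKiso
  have d3 := (Submodule.finrank_mono hle).trans (Submodule.finrank_add_le_finrank_add_finrank W' K')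
  have dV : finrank F Vm = 2 * finrank F W' := by omega
  -- eigenspaces of the factors
  set Bm : Submodule F B := LinearMap.range (1 - T) with hBm
  set Bp : Submodule F B := LinearMap.range (1 + T) with hBp
  have dW : finrank F W' = finrank F Bm := by
    rw [hW, LinearMap.range_comp]
    exact ((Submodule.equivMapOfInjective _ (fun u v h => P.pu_inj hw h) _)).finrank_eq.symm
  have dB : finrank F Bm + finrank F Bp ≥ finrank F B := by
    rw [← finrank_top (R := F) (M := B)]
    refine le_trans ?_ (Submodule.finrank_add_le_finrank_add_finrank Bm Bp)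
    refine Submodule.finrank_mono fun u _ => ?_
    have e : u = (2 : F)⁻¹ • (1 - T) u + (2 : F)⁻¹ • (1 + T) u := by
      simp only [LinearMap.sub_apply, LinearMap.add_apply, Module.End.one_apply, ← smul_add,
        sub_add_add_cancel, ← two_smul F u, smul_smul, inv_mul_cancel₀ h2, one_smul]
    rw [e]
    exact Submodule.add_mem_sup (Submodule.smul_mem _ _ ⟨u, rfl⟩) (Submodule.smul_mem _ _ ⟨u, rfl⟩)
  have hBmT : ∀ u ∈ Bm, T u = -u := by
    rintro _ ⟨u, rfl⟩; simp [hT2]
  have hBpT : ∀ u ∈ Bp, T u = u := by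
    rintro _ ⟨u, rfl⟩; simp [hT2, add_comm]
  set Ap : Submodule F A := LinearMap.ker (G - 1) with hAp
  have hApG : ∀ x, x ∈ Ap ↔ G x = x := fun x => by simp [hAp, sub_eq_zero]
  have plus : ∀ x, G x = x → ∀ u ∈ Bm, pu x u ∈ Vm := fun x hx' u hu => by
    refine (Vm.smul_mem_iff h2).mp ⟨pu x u, ?_⟩
    simp [hf, hG, hx', hBmT u hu, two_smul]
  have minus : ∀ x, G x = -x → ∀ u ∈ Bp, pu x u ∈ Vm := fun x hx' u hu => by
    refine (Vm.smul_mem_iff h2).mp ⟨pu x u, ?_⟩
    simp [hf, hG, hx', hBpT u hu, two_smul]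
  have count : ∀ (ι : Type) [Fintype ι] (av : ι → A) (S : ι → Submodule F B), LinearIndependent F av →
      (∀ i, ∀ u ∈ S i, pu (av i) u ∈ Vm) → ∑ i, finrank F (S i) ≤ finrank F Vm := by
    intro ι _ av S hav hmem
    let Φ : (∀ i, S i) →ₗ[F] V :=
      ∑ i, ((pu (av i)).comp (S i).subtype).comp (LinearMap.proj i)
    refine finrank_three_family Φ ((injective_iff_map_eq_zero Φ).mpr fun x hx0 => ?_) fun x => ?_
    · funext i
      refine Subtype.ext (P.sum_pu_eq_zero hav (u := fun i => (x i : B)) ?_ i)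
      simpa [Φ] using hx0
    · simp only [Φ, LinearMap.sum_apply, LinearMap.comp_apply, LinearMap.proj_apply, Submodule.subtype_apply]
      exact Submodule.sum_mem _ fun i _ => hmem i _ (x i).2
  have hVne : Vm ≠ ⊥ := fun h => hz1 (op_inj (by
    rw [op_one]
    exact (sub_eq_zero.mp (LinearMap.range_eq_bot.mp h)).symm))
  have hVpos : 0 < finrank F Vm := Nat.pos_of_ne_zero fun h => hVne (Submodule.finrank_eq_zero.mp h)
  have hwAp : w ∈ Ap := (hApG w).mpr hGw
  have h2A : 2 ≤ finrank F Ap := by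
    by_contra hlt
    have hspan : Submodule.span F {w} = Ap := Submodule.eq_of_le_of_finrank_le
      ((Submodule.span_singleton_le_iff_mem _ _).mpr hwAp) (by rw [finrank_span_singleton hw]; omega)
    set Am : Submodule F A := LinearMap.range (G - 1) with hAm
    have hAmG : ∀ x ∈ Am, G x = -x := by rintro _ ⟨v, rfl⟩; simp [hG2]
    have hd := LinearMap.finrank_range_add_finrank_ker (G - 1)
    rw [← hAm, ← hAp] at hd
    by_cases hμ1 : μ = 1
    · refine hw (P.T.ωnd w fun v => ?_)
      have hv : v - (2 : F)⁻¹ • (v - G v) ∈ Ap := by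
        rw [hApG, map_sub, map_smul, map_sub, hG2]
        match_scalars <;> field_simp <;> ring
      rw [← hspan] at hv
      obtain ⟨c, hc⟩ := Submodule.mem_span_singleton.mp hv
      have hm : G (v - G v) = -(v - G v) := by simp [hG2]
      have h0 : ω w (v - G v) = 0 := by
        have h' := hμ w (v - G v)
        rw [hGw, hm, hμ1, mul_one, map_neg] at h'
        exact (mul_eq_zero.mp (show (2 : F) * ω w (v - G v) = 0 by linear_combination -h')).resolve_left h2
      rw [show v = c • w + (2 : F)⁻¹ • (v - G v) by rw [hc]; abel, map_add, map_smul, map_smul, h0,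
        P.T.alt w]
      simp
    · -- the minus space would be totally isotropic
      have hiso : ∀ x ∈ Am, ∀ x' ∈ Am, ω x x' = 0 := fun x hx' x' hx'' => by
        have h' := hμ x x'
        rw [hAmG x hx', hAmG x' hx''] at h'
        simp only [map_neg, LinearMap.neg_apply, neg_neg] at h'
        exact (mul_eq_zero.mp (show (μ - 1) * ω x x' = 0 by linear_combination h')).resolve_left
          (sub_ne_zero.mpr hμ1)
      let Ψ : Am →ₗ[F] Module.Dual F A := ω.comp Am.subtype
      have hΨ : Function.Injective Ψ := (injective_iff_map_eq_zero Ψ).mpr fun v hv =>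
        Subtype.ext (P.T.ωnd _ fun x => congrArg (fun g => g x) hv)
      have hle' : LinearMap.range Ψ ≤ Am.dualAnnihilator := by
        rintro _ ⟨v, rfl⟩
        rw [Submodule.mem_dualAnnihilator]
        exact fun x hx' => hiso v v.2 x hx'
      have h1 := Submodule.finrank_mono hle'
      rw [LinearMap.finrank_range_of_inj hΨ] at h1
      have h3 := Subspace.finrank_add_finrank_dualAnnihilator_eq Am
      rw [← hspan, finrank_span_singleton hw] at hd
      omega
  rcases Nat.lt_or_ge 2 (finrank F Ap) with h3A | h3A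
  · exfalso
    obtain ⟨av, hav⟩ : ∃ av : Fin 3 → Ap, LinearIndependent F av :=
      ⟨(Module.finBasis F Ap) ∘ Fin.castLE h3A, (Module.finBasis F Ap).linearIndependent.comp _
        (Fin.castLE_injective _)⟩
    have := count (Fin 3) (fun i => (av i : A)) (fun _ => Bm)
      (hav.map' Ap.subtype (Submodule.ker_subtype _)) fun i u hu => plus _ ((hApG _).mp (av i).2) u hu
    rw [Finset.sum_const, Finset.card_univ, Fintype.card_fin, smul_eq_mul] at this
    omega
  -- two dimensions
  obtain ⟨am, ham0, ham⟩ : ∃ am : A, am ≠ 0 ∧ G am = -am := by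
    by_contra hc
    push Not at hc
    have : Ap = ⊤ := eq_top_iff.mpr fun v _ => (hApG v).mpr (by
      by_contra hne
      exact hc (v - G v) (sub_ne_zero.mpr (Ne.symm hne)) (by rw [map_sub, hG2, neg_sub]))
    rw [this, finrank_top] at h3A
    omega
  set bA := Module.finBasisOfFinrankEq F Ap (by omega : finrank F Ap = 2)
  set av : Fin 2 → A := fun i => (bA i : A)
  have hav : LinearIndependent F av := bA.linearIndependent.map' Ap.subtype (Submodule.ker_subtype _)
  have havG : ∀ i, G (av i) = av i := fun i => (hApG _).mp (bA i).2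
  have hav3 : LinearIndependent F (Fin.cons am av : Fin 3 → A) := by
    rw [linearIndependent_finCons]
    refine ⟨hav, fun hmem => ?_⟩
    have : am ∈ Ap := (Submodule.span_le.mpr (by rintro _ ⟨i, rfl⟩; exact (bA i).2) :
      Submodule.span F (Set.range av) ≤ Ap) hmem
    rw [hApG, ham] at this
    have h' : (2 : F) • am = 0 := by rw [two_smul]; nth_rewrite 1 [← this]; exact neg_add_cancel am
    exact ham0 ((smul_eq_zero.mp h').resolve_left h2)
  have hc := count (Fin 3) (Fin.cons am av) (Fin.cons Bp fun _ => Bm) hav3 (by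
    intro i
    refine Fin.cases ?_ (fun j => ?_) i
    · exact fun u hu => minus am ham u hu
    · exact fun u hu => plus _ (havG j) u hu)
  simp only [Fin.sum_univ_three] at hc
  change finrank F Bp + finrank F Bm + finrank F Bm ≤ _ at hc
  have hBm_top : finrank F Bm = finrank F B := by
    have := Submodule.finrank_le Bm
    omega
  have htopB : Bm = ⊤ := Submodule.eq_top_of_finrank_eq hBm_top
  -- the moved space is two layers
  let Φ : (Fin 2 → B) →ₗ[F] V := ∑ i, (pu (av i)).comp (LinearMap.proj i)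
  have hΦinj : Function.Injective Φ := (injective_iff_map_eq_zero Φ).mpr fun x hx0 => by
    funext i
    exact P.sum_pu_eq_zero hav (u := x) (by simpa [Φ] using hx0) i
  have hΦle : LinearMap.range Φ ≤ Vm := by
    rintro _ ⟨x, rfl⟩
    simp only [Φ, LinearMap.sum_apply, LinearMap.comp_apply, LinearMap.proj_apply]
    exact Submodule.sum_mem _ fun i _ => plus _ (havG i) _ (htopB ▸ Submodule.mem_top)
  have hVeq : LinearMap.range Φ = Vm := Submodule.eq_of_le_of_finrank_le hΦle (by
    rw [LinearMap.finrank_range_of_inj hΦinj, Module.finrank_pi_fintype, Finset.sum_const, Finset.card_univ,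
      Fintype.card_fin, smul_eq_mul]
    omega)
  have hKV : LinearMap.range K ≤ Vm := by
    have h1 : finrank F (LinearMap.range K) = finrank F B := LinearMap.finrank_range_of_inj hKinj
    have h2' : K' ≤ LinearMap.range K := inf_le_right
    have h3 : K' = LinearMap.range K := Submodule.eq_of_le_of_finrank_le h2' (by omega)
    exact h3 ▸ inf_le_left
  obtain ⟨k, hk, hk0⟩ : ∃ k ∈ LinearMap.ker ((ω.flip (av 0)).prod (ω.flip (av 1))), k ≠ 0 :=
    Submodule.exists_mem_ne_zero_of_ne_bot (LinearMap.ker_ne_bot_of_finrank_lt (by simp; omega))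
  have hk1 : ∀ i, ω k (av i) = 0 := by
    intro i
    fin_cases i
    · exact congrArg Prod.fst hk
    · exact congrArg Prod.snd hk
  have hfix : ∀ u, op y (pu k u) = pu k u := fun u => by
    have h0 : L (pu k u) = 0 := P.T.snd _ fun u' => by
      rw [hR.1]
      obtain ⟨x, hx'⟩ := hVeq.ge (hKV ⟨u', rfl⟩)
      rw [← hx']
      simp [Φ, P.T.form, hk1]
    rw [he, LinearMap.add_apply, Module.End.one_apply, LinearMap.comp_apply, h0, map_zero, add_zero]
  obtain ⟨x₂, hx₂⟩ := P.exists_dual hk0
  obtain ⟨G', hG'⟩ := P.fix_pure hgood hb hq3 hx₂ hy hfix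
  exact ⟨G', 1, fun x u => by rw [hG']; rfl⟩

/-- Quadratic elements of the group are tensor products. -/
theorem quad_pure (hgood : Good M pu D) (hb : 3 ≤ finrank F B)
    (hq3 : (∃ t : F, t ≠ 0 ∧ t * t ≠ 1) ∨ 4 ≤ finrank F B) (ha4 : 4 ≤ finrank F A) {w : A} (hw : w ≠ 0)
    {K : B →ₗ[F] V} {L : V →ₗ[F] B} (hR : Root s K L) (hKinj : Function.Injective K)
    {y : GL (Fin m ⊕ Fin m) F} (hy : y ∈ M) (he : op y = 1 + K.comp L) : Pu pu y := by
  obtain ⟨a, ha, hea, hea'⟩ := P.root_elem w
  by_cases hn : ∃ n : ℕ, (D w ∘ₗ K.comp L ∘ₗ pu w : Module.End F B) ^ (2 ^ n) = 0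
  · obtain ⟨n, hn⟩ := hn
    exact P.pure_of_zero hgood hb hq3 hw hR hy he
      (P.eq_zero_of_nilpotent hgood (by omega) hw n hR hy he hn)
  push Not at hn
  obtain ⟨z, hz, hz1, hz2, hza, hzn⟩ := P.exists_involution hw hR hea hea' he hn
  exact P.pure_of_involution hgood hb hq3 ha4 hw hR ha hy hea he hz hz1 hz2 hza hzn hKinj

end ST

end Cfsg.Agent.H1.SpT
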