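import Cfsg.Agent.H1.SpT.Setup

/-!
A layer with a coefficient that is not scalar forces all transvections.
-/

set_option autoImplicit false
set_option linter.unusedSectionVars false

namespace Cfsg.Agent.H1.SpT.ST

open scoped Matrix
open Cfsg.Agent.H98 Cfsg.Agent.H25.GeoLists Module

attribute [-simp] Cfsg.Agent.H2.sympBilin_apply

variable {m : ℕ} {F : Type*} [Field F] {A B : Type*} [AddCommGroup A] [Module F A] [AddCommGroup B] [Module F B]
variable {M : Subgroup (GL (Fin m ⊕ Fin m) F)} {ω : A →ₗ[F] A →ₗ[F] F} {s : B →ₗ[F] B →ₗ[F] F}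
  {pu : A →ₗ[F] B →ₗ[F] (Fin m ⊕ Fin m → F)} {C : B →ₗ[F] (Fin m ⊕ Fin m → F) →ₗ[F] A}
  {D : A →ₗ[F] (Fin m ⊕ Fin m → F) →ₗ[F] B}
  [Fintype F] [FiniteDimensional F A] [FiniteDimensional F B]

local notation "V" => (Fin m ⊕ Fin m → F)
local notation "Mat" => Matrix (Fin m ⊕ Fin m) (Fin m ⊕ Fin m) F
local notation "β" => Cfsg.Agent.H2.sympBilin m F

theorem refl_refl (P : ST M ω s pu C D) {z : B} (hz : s z z ≠ 0) (v : B) : refl s z (refl s z v) = v := by
  simp only [refl_apply, map_sub, map_smul, LinearMap.sub_apply, LinearMap.smul_apply, smul_eq_mul]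
  match_scalars <;> field_simp <;> ring

/-- Conjugation of a layer element by a tensor product of isometries. -/
theorem conj_lay (P : ST M ω s pu C D) {g : GL (Fin m ⊕ Fin m) F} (hg : g ∈ M) {w : A} {S : Module.End F B}
    (he : op g = 1 + lay pu D w S) (G : Module.End F A) (k k' : Module.End F B)
    (hG : ∀ x y, ω (G x) (G y) = ω x y) (hk : ∀ u v, s (k u) (k v) = s u v) (hk' : k' * k = 1) :
    ∃ g' ∈ M, op g' = 1 + lay pu D (G w) (k * S * k') := by
  obtain ⟨h, hh, he'⟩ := P.exists_elem G k hG hk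
  refine ⟨h * g * h⁻¹, M.mul_mem (M.mul_mem hh hg) (M.inv_mem hh), ?_⟩
  have key : op h * lay pu D w S = lay pu D (G w) (k * S * k') * op h := P.T.ext_pu fun x u => by
    simp only [Module.End.mul_apply, lay_apply, he', P.D_pu, hG]
    have : k' (k u) = u := congrArg (fun f => f u) hk'
    simp only [map_smul, this, he']
  rw [op_mul, op_mul, he, mul_add, mul_one, key, add_mul, op_mul_inv, mul_assoc, op_mul_inv, mul_one]

theorem lay_mul_lay (P : ST M ω s pu C D) (w : A) (S S' : Module.End F B) :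
    lay pu D w S * lay pu D w S' = 0 :=
  LinearMap.ext fun v => by simp [lay_apply, P.D_self]

/-- The coefficients of all layers. -/
def layers (P : ST M ω s pu C D) : Submodule F (Module.End F B) where
  carrier := {S | ∀ w : A, ∃ g ∈ M, op g = 1 + lay pu D w S}
  zero_mem' w := ⟨1, M.one_mem, by rw [op_one]; exact LinearMap.ext fun v => by simp [lay_apply]⟩
  add_mem' {S S'} hS hS' w := by
    obtain ⟨g, hg, he⟩ := hS w
    obtain ⟨g', hg', he'⟩ := hS' w
    refine ⟨g * g', M.mul_mem hg hg', ?_⟩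
    rw [op_mul, he, he', add_mul, one_mul, mul_add, mul_one, P.lay_mul_lay, add_zero]
    exact LinearMap.ext fun v => by simp [lay_apply]; abel
  smul_mem' c S hS w := by
    have sq : ∀ k : F, ∃ g ∈ M, op g = 1 + lay pu D w ((k * k) • S) := fun k => by
      obtain ⟨g, hg, he⟩ := hS (k • w)
      exact ⟨g, hg, he.trans (LinearMap.ext fun v => by simp [lay_apply, smul_smul])⟩
    obtain ⟨g, hg, he⟩ := sq ((c + 1) / 2)
    obtain ⟨g', hg', he'⟩ := sq ((c - 1) / 2)
    have hinv : op g'⁻¹ = 1 - lay pu D w (((c - 1) / 2 * ((c - 1) / 2)) • S) := op_inv_of (by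
      rw [he', mul_sub, mul_one, add_mul, one_mul, P.lay_mul_lay, add_zero]; abel)
    refine ⟨g * g'⁻¹, M.mul_mem hg (M.inv_mem hg'), ?_⟩
    rw [op_mul, he, hinv, add_mul, one_mul, mul_sub, mul_one, P.lay_mul_lay, sub_zero]
    refine LinearMap.ext fun v => ?_
    have h2 := P.T.two
    have e : c = (c + 1) / 2 * ((c + 1) / 2) - (c - 1) / 2 * ((c - 1) / 2) := by field_simp; ring
    conv_rhs => rw [e]
    simp only [LinearMap.add_apply, LinearMap.sub_apply, lay_apply, LinearMap.smul_apply, sub_smul, map_sub,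
      map_smul]
    abel

theorem exists_transitive (P : ST M ω s pu C D) {w w' : A} (hw : w ≠ 0) (hw' : w' ≠ 0) :
    ∃ G : Module.End F A, (∀ x y, ω (G x) (G y) = ω x y) ∧ G w = w' := by
  have step : ∀ y x : A, ω y x ≠ 0 → ∃ G : Module.End F A, (∀ a b, ω (G a) (G b) = ω a b) ∧ G y = x :=
    fun y x h => ⟨tv ω (x - y) (ω y x)⁻¹, P.T.tv_isom _ _, by
      rw [tv_apply, map_sub, P.T.alt, sub_zero, inv_mul_cancel₀ h, one_smul, add_sub_cancel]⟩
  obtain ⟨p, hp, hp'⟩ := P.T.exists_pairing hw hw'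
  obtain ⟨G, hG, hGw⟩ := step w p hp
  obtain ⟨G', hG', hGp⟩ := step p w' (by rw [P.T.ωswap w' p]; exact neg_ne_zero.mpr hp')
  exact ⟨G' * G, fun a b => by rw [Module.End.mul_apply, Module.End.mul_apply, hG', hG],
    by rw [Module.End.mul_apply, hGw, hGp]⟩

theorem mem_layers (P : ST M ω s pu C D) {w : A} (hw : w ≠ 0) {S : Module.End F B}
    {g : GL (Fin m ⊕ Fin m) F} (hg : g ∈ M) (he : op g = 1 + lay pu D w S) : S ∈ P.layers := by
  intro w'
  rcases eq_or_ne w' 0 with rfl | hw'
  · exact ⟨1, M.one_mem, by rw [op_one]; exact LinearMap.ext fun v => by simp [lay_apply]⟩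
  obtain ⟨G, hG, hGw⟩ := P.exists_transitive hw hw'
  obtain ⟨g', hg', he'⟩ := P.conj_lay hg he G 1 1 hG (fun _ _ => rfl) (one_mul 1)
  exact ⟨g', hg', by rw [he', hGw, one_mul, mul_one]⟩

theorem conj_layers (P : ST M ω s pu C D) {S : Module.End F B} (hS : S ∈ P.layers) (k k' : Module.End F B)
    (hk : ∀ u v, s (k u) (k v) = s u v) (hk' : k' * k = 1) : k * S * k' ∈ P.layers := by
  intro w
  obtain ⟨g, hg, he⟩ := hS w
  exact P.conj_lay hg he 1 k k' (fun _ _ => rfl) hk hk'

theorem layers_selfAdjoint (P : ST M ω s pu C D) (hA : ∃ w : A, w ≠ 0) {S : Module.End F B}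
    (hS : S ∈ P.layers) (u u' : B) : s (S u) u' = s u (S u') := by
  obtain ⟨w, hw⟩ := hA
  obtain ⟨x, hx⟩ := P.exists_dual hw
  obtain ⟨g, hg, he⟩ := hS w
  have h := P.mem_beta hg (pu x u) (pu x u')
  simp only [he, LinearMap.add_apply, Module.End.one_apply, lay_apply, P.D_pu, hx, one_smul, map_add,
    P.T.form, P.T.alt, P.T.ωswap x w] at h
  linear_combination -h

/-- The symmetric endomorphism belonging to two vectors. -/
def sym (s : B →ₗ[F] B →ₗ[F] F) (x y : B) : Module.End F B :=
  (s.flip x).smulRight y + (s.flip y).smulRight x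

theorem sym_apply (x y u : B) : sym s x y u = s u x • y + s u y • x := by simp [sym]

theorem sym_comm (x y : B) : sym s x y = sym s y x := add_comm _ _

theorem sym_smul (c : F) (x y : B) : sym s x (c • y) = c • sym s x y :=
  LinearMap.ext fun u => by simp [sym_apply, smul_smul, mul_comm]

theorem sym_add (x y y' : B) : sym s x (y + y') = sym s x y + sym s x y' :=
  LinearMap.ext fun u => by simp [sym_apply, add_smul]; abel

theorem conj_sym (x y : B) (k k' : Module.End F B) (hk : ∀ u v, s (k u) (k v) = s u v) (hkk : k * k' = 1) :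
    k * sym s x y * k' = sym s (k x) (k y) := by
  refine LinearMap.ext fun u => ?_
  have : ∀ z, s (k' u) z = s u (k z) := fun z => by
    conv_rhs => rw [show u = k (k' u) from (congrArg (fun f => f u) hkk).symm]
    rw [hk]
  simp only [Module.End.mul_apply, sym_apply, map_add, map_smul, this]

theorem refl_mul_self (P : ST M ω s pu C D) {z : B} (hz : s z z ≠ 0) :
    (refl s z : Module.End F B) * refl s z = 1 := LinearMap.ext fun v => P.refl_refl hz v

variable (P : ST M ω s pu C D)

/-- The second arguments of the layer elements with first argument `x`. -/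
def partners (x : B) : Submodule F B where
  carrier := {y | s y x = 0 ∧ sym s x y ∈ P.layers}
  zero_mem' := ⟨by simp, by
    have : sym s x 0 = 0 := LinearMap.ext fun u => by simp [sym_apply]
    rw [this]; exact zero_mem _⟩
  add_mem' {y y'} h h' := ⟨by simp [h.1, h'.1], by rw [sym_add]; exact add_mem h.2 h'.2⟩
  smul_mem' c y h := ⟨by simp [h.1], by rw [sym_smul]; exact P.layers.smul_mem c h.2⟩

/-- One partner gives all. -/
theorem mem_partners (hb : 3 ≤ finrank F B) (hq : (∃ t : F, t ≠ 0 ∧ t * t ≠ 1) ∨ 4 ≤ finrank F B)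
    {x : B} (hx : s x x ≠ 0) {y₀ : B} (hy₀ : y₀ ≠ 0) (hm : y₀ ∈ partners P x) {y : B} (hy : s y x = 0) :
    y ∈ partners P x := by
  classical
  set K : Submodule F B := LinearMap.ker (s.flip x) with hK
  let sK : K →ₗ[F] K →ₗ[F] F := s.compl₁₂ K.subtype K.subtype
  have hd : finrank F K + 1 = finrank F B := by
    refine Dual.finrank_ker_add_one_of_ne_zero fun h => hx ?_
    exact congrArg (fun f => f x) h
  have hnd : ∀ u : K, (∀ v : K, sK u v = 0) → u = 0 := by
    intro u hu
    refine Subtype.ext (P.T.snd _ fun v => ?_)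
    have hv : v - (s v x / s x x) • x ∈ K := by simp [hK, div_mul_cancel₀ _ hx]
    have h' : s (u : B) (v - (s v x / s x x) • x) = 0 := hu ⟨_, hv⟩
    rw [map_sub, map_smul, show s (u : B) x = 0 from u.2, smul_zero, sub_zero] at h'
    exact h'
  have htop : (partners P x).comap K.subtype = ⊤ := by
    refine refl_invariant_eq_top sK (fun u v => P.T.sym _ _) P.T.two hnd (hq.imp id fun h => by omega) _ ?_ ?_
    · intro z hz u hu
      have hz' : s (z : B) (z : B) ≠ 0 := hz
      have hxz : refl s (z : B) x = x := by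
        rw [refl_apply, show s x (z : B) = 0 by rw [P.T.sym]; exact z.2]; simp
      have h' := P.conj_layers hu.2 (refl s (z : B)) (refl s (z : B)) (P.T.refl_isom hz') (P.refl_mul_self hz')
      rw [conj_sym _ _ _ _ (P.T.refl_isom hz') (P.refl_mul_self hz'), hxz] at h'
      have e : ((refl sK z u : K) : B) = refl s (z : B) (u : B) := by
        simp [refl_apply, sK]
      show ((refl sK z u : K) : B) ∈ partners P x
      rw [e]
      refine ⟨?_, h'⟩
      conv_lhs => rw [← hxz]
      rw [P.T.refl_isom hz']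
      exact u.2
    · intro h0
      have : (⟨y₀, hm.1⟩ : K) ∈ (partners P x).comap K.subtype := hm
      rw [h0, Submodule.mem_bot] at this
      exact hy₀ (congrArg Subtype.val this)
  exact (htop.ge (Submodule.mem_top : (⟨y, hy⟩ : K) ∈ ⊤) :)

/-- A coefficient that is not scalar gives the square of a singular vector. -/
theorem exists_singular_square (hA : ∃ w : A, w ≠ 0) (hb : 3 ≤ finrank F B)
    (hq : (∃ t : F, t ≠ 0 ∧ t * t ≠ 1) ∨ 4 ≤ finrank F B) {S : Module.End F B} (hS : S ∈ P.layers)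
    (hns : ¬ ∃ c : F, S = c • (1 : Module.End F B)) : ∃ p, p ≠ 0 ∧ s p p = 0 ∧ sym s p p ∈ P.layers := by
  classical
  have h2 := P.T.two
  have hadj := P.layers_selfAdjoint hA hS
  -- a non-singular vector that is not an eigenvector
  obtain ⟨x, hx, hxe⟩ : ∃ x, s x x ≠ 0 ∧ ∀ c : F, S x ≠ c • x := by
    by_contra hc
    push Not at hc
    obtain ⟨u₁, -, h₁⟩ : ∃ u ∈ (⊤ : Submodule F B), s u u ≠ 0 := by
      obtain ⟨u, -, hu⟩ := exists_perp s P.T.sym h2 P.T.snd (![] : Fin 0 → B) (fun i => i.elim0)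
        (fun i => i.elim0) (by omega)
      exact ⟨u, Submodule.mem_top, hu⟩
    obtain ⟨c, hc1⟩ := hc u₁ h₁
    refine hns ⟨c, ?_⟩
    have htop : LinearMap.ker (S - c • (1 : Module.End F B)) = ⊤ := by
      refine refl_invariant_eq_top s P.T.sym h2 P.T.snd (hq.imp id fun h => by omega) _ ?_ ?_
      · intro z hz u hu
        rw [LinearMap.mem_ker, LinearMap.sub_apply, LinearMap.smul_apply, Module.End.one_apply, sub_eq_zero] at hu
        rw [LinearMap.mem_ker, LinearMap.sub_apply, LinearMap.smul_apply, Module.End.one_apply, sub_eq_zero,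
          refl_apply, map_sub, map_smul, hu]
        obtain ⟨d, hd⟩ := hc z hz
        have h := hadj u z
        rw [hu, hd, map_smul, map_smul, LinearMap.smul_apply, smul_eq_mul, smul_eq_mul] at h
        by_cases huz : s u z = 0
        · simp [huz]
        · rw [hd, show d = c from mul_right_cancel₀ huz h.symm, smul_sub, smul_comm]
      · intro h0
        have : u₁ ∈ LinearMap.ker (S - c • (1 : Module.End F B)) := by simp [hc1]
        rw [h0, Submodule.mem_bot] at this
        exact h₁ (by rw [this]; simp)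
    exact sub_eq_zero.mp (LinearMap.ker_eq_top.mp htop)
  set r : Module.End F B := refl s x with hr
  have hdiff : S - r * S * r ∈ P.layers :=
    sub_mem hS (P.conj_layers hS r r (P.T.refl_isom hx) (P.refl_mul_self hx))
  set y := S x - (s (S x) x / s x x) • x with hy
  have hyx : s y x = 0 := by simp [hy, div_mul_cancel₀ _ hx]
  have hy0 : y ≠ 0 := fun h => hxe _ (sub_eq_zero.mp h)
  have hxy : sym s x y ∈ P.layers := by
    have e : S - r * S * r = (2 / s x x) • sym s x y := by
      refine LinearMap.ext fun u => ?_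
      simp only [LinearMap.sub_apply, Module.End.mul_apply, hr, refl_apply, LinearMap.smul_apply, sym_apply, hy,
        map_sub, map_smul, LinearMap.sub_apply, LinearMap.smul_apply, smul_eq_mul, hadj u x]
      match_scalars <;> field_simp <;> ring
    rw [e] at hdiff
    exact (P.layers.smul_mem_iff (div_ne_zero h2 hx)).mp hdiff
  have hall := fun {z : B} (hz : s z x = 0) => P.mem_partners hb hq hx hy0 ⟨hyx, hxy⟩ hz
  -- a singular vector in the sum of `x` and an orthogonal vector
  obtain ⟨e₁, o₁, n₁⟩ := exists_perp s P.T.sym h2 P.T.snd ![x] (fun i => by simpa using hx)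
    (fun i j hij => absurd (Subsingleton.elim i j) hij) (by omega)
  have o₁x : s e₁ x = 0 := by simpa using o₁ 0
  have oxe₁ : s x e₁ = 0 := by rw [P.T.sym]; exact o₁x
  obtain ⟨e₂, o₂, n₂⟩ := exists_perp s P.T.sym h2 P.T.snd ![x, e₁]
    (fun i => by fin_cases i <;> simpa)
    (fun i j hij => by fin_cases i <;> fin_cases j <;> first | exact absurd rfl hij | exact oxe₁ | exact o₁x)
    (by omega)
  obtain ⟨a, b, hab⟩ := exists_binary_value n₁ n₂ h2 (- s x x)
  set z₂ := a • e₁ + b • e₂ with hz₂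
  have o₂x : s e₂ x = 0 := by simpa using o₂ 0
  have o₂e : s e₂ e₁ = 0 := by simpa using o₂ 1
  have oe₂ : s e₁ e₂ = 0 := by rw [P.T.sym]; exact o₂e
  have hz₂x : s z₂ x = 0 := by simp [hz₂, o₁x, o₂x]
  have hxz₂ : s x z₂ = 0 := by rw [P.T.sym]; exact hz₂x
  have hz₂q : s z₂ z₂ = - s x x := by
    simp only [hz₂, map_add, map_smul, LinearMap.add_apply, LinearMap.smul_apply, smul_eq_mul, o₂e, oe₂]
    linear_combination hab
  have hz₂0 : s z₂ z₂ ≠ 0 := by rw [hz₂q]; exact neg_ne_zero.mpr hx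
  obtain ⟨z, oz, nz⟩ := exists_perp s P.T.sym h2 P.T.snd ![x, z₂]
    (fun i => by fin_cases i <;> simpa)
    (fun i j hij => by fin_cases i <;> fin_cases j <;> first | exact absurd rfl hij | exact hxz₂ | exact hz₂x)
    (by omega)
  have ozx : s z x = 0 := by simpa using oz 0
  have ozz₂ : s z z₂ = 0 := by simpa using oz 1
  have hxz : s x z = 0 := by rw [P.T.sym]; exact ozx
  set p := x + z₂ with hp
  have hpz : s p z = 0 := by
    rw [P.T.sym]; simp [hp, ozx, ozz₂]
  have hzp : s z p = 0 := by rw [P.T.sym]; exact hpz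
  have hpp : s p p = 0 := by simp [hp, hz₂x, hxz₂, hz₂q]
  have hp0 : p ≠ 0 := fun h => hx (by
    have := congrArg (fun v => s v x) h
    simpa [hp, hz₂x] using this)
  have hx0 : x ≠ 0 := fun h => hx (by rw [h]; simp)
  have hzp' : sym s z p ∈ P.layers :=
    (P.mem_partners hb hq nz hx0 ⟨hxz, by rw [sym_comm]; exact (hall ozx).2⟩ hpz).2
  -- the unipotent isometry
  let E : F → Module.End F B := fun t => LinearMap.id + t • ((s.flip z).smulRight p - (s.flip p).smulRight z) -
    (t * t * (s z z / 2)) • (s.flip p).smulRight p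
  have hE : ∀ t u, E t u = u + t • (s u z • p - s u p • z) - (t * t * (s z z / 2)) • (s u p • p) := fun t u => by
    simp [E]
  have hEiso : ∀ t u v, s (E t u) (E t v) = s u v := fun t u v => by
    simp only [hE, map_add, map_sub, map_smul, LinearMap.add_apply, LinearMap.sub_apply, LinearMap.smul_apply,
      smul_eq_mul, hpp, hpz, hzp, P.T.sym z v, P.T.sym p v]
    field_simp
    ring
  have hEinv : ∀ t, E (-t) * E t = 1 := fun t => LinearMap.ext fun u => by
    simp only [Module.End.mul_apply, hE, map_add, map_sub, map_smul, LinearMap.add_apply, LinearMap.sub_apply,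
      LinearMap.smul_apply, smul_eq_mul, hpp, hpz, hzp, Module.End.one_apply]
    match_scalars <;> field_simp <;> ring
  have hEz : E 1 z = z + s z z • p := by rw [hE, hzp]; simp
  have hEp : E 1 p = p := by rw [hE, hpp, hpz]; simp
  have hkk : E 1 * E (-1) = 1 := by simpa using hEinv (-1)
  have hm := P.conj_layers hzp' (E 1) (E (-1)) (hEiso 1) (hEinv 1)
  rw [conj_sym _ _ _ _ (hEiso 1) hkk, hEz, hEp, sym_comm, sym_add, sym_smul, sym_comm p z] at hm
  refine ⟨p, hp0, hpp, (P.layers.smul_mem_iff nz).mp ?_⟩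
  simpa using P.layers.sub_mem hm hzp'

include P in
/-- A coefficient that is not scalar gives the symplectic group. -/
theorem sp_le_of_not_good (hb : 3 ≤ finrank F B) (hq : (∃ t : F, t ≠ 0 ∧ t * t ≠ 1) ∨ 4 ≤ finrank F B)
    (hbad : ¬ Good M pu D) : Cfsg.spGL m F ≤ M := by
  classical
  simp only [Good, not_forall] at hbad
  obtain ⟨w₀, S, g, hw₀, hg, he, hns⟩ := hbad
  have h2 := P.T.two
  obtain ⟨p₀, hp₀0, hp₀, hp₀L⟩ := P.exists_singular_square ⟨w₀, hw₀⟩ hb hq (P.mem_layers hw₀ hg he) hns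
  let PP : Set B := {p | p ≠ 0 ∧ s p p = 0 ∧ sym s p p ∈ P.layers}
  have hPr : ∀ z, s z z ≠ 0 → ∀ p ∈ PP, refl s z p ∈ PP := by
    rintro z hz p ⟨hp0, hp, hpL⟩
    refine ⟨fun h => hp0 (by rw [← P.refl_refl hz p, h, map_zero]), by rw [P.T.refl_isom hz, hp], ?_⟩
    have := P.conj_layers hpL (refl s z) (refl s z) (P.T.refl_isom hz) (P.refl_mul_self hz)
    rwa [conj_sym _ _ _ _ (P.T.refl_isom hz) (P.refl_mul_self hz)] at this
  have hspan : Submodule.span F PP = ⊤ := by
    refine refl_invariant_eq_top s P.T.sym h2 P.T.snd (hq.imp id fun h => by omega) _ ?_ ?_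
    · intro z hz u hu
      have hle : Submodule.span F PP ≤ (Submodule.span F PP).comap (refl s z) :=
        Submodule.span_le.mpr fun p hp => Submodule.subset_span (hPr z hz p hp)
      exact hle hu
    · intro h0
      have : p₀ ∈ Submodule.span F PP := Submodule.subset_span ⟨hp₀0, hp₀, hp₀L⟩
      rw [h0, Submodule.mem_bot] at this
      exact hp₀0 this
  let Cs : Set V := {y | ∀ k, spTrans y k ∈ M}
  have hsmul : ∀ (k : F), ∀ y ∈ Cs, k • y ∈ Cs := fun k y hy d => by rw [spTrans_smul]; exact hy _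
  have hadd : ∀ y ∈ Cs, ∀ z ∈ Cs, β y z ≠ 0 → y + z ∈ Cs := fun y hy z hz hyz d => by
    have hg' := hz (β y z)⁻¹
    have := M.mul_mem (M.mul_mem hg' (hy d)) (M.inv_mem hg')
    rwa [conj_spTrans (spTrans_mem _ _), spTrans_mulVec, inv_mul_cancel₀ hyz, one_smul] at this
  let Ts : Set V := {y | ∃ (x : A) (p : B), x ≠ 0 ∧ p ∈ PP ∧ y = pu x p}
  have hTC : Ts ⊆ Cs := by
    rintro _ ⟨x, p, -, ⟨-, -, hpL⟩, rfl⟩ k
    obtain ⟨h, hh, he'⟩ := P.layers.smul_mem (k / 2) hpL x
    convert hh using 1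
    refine op_inj (LinearMap.ext fun v => ?_)
    rw [he', op_apply, spTrans_mulVec, LinearMap.add_apply, Module.End.one_apply, lay_apply, LinearMap.smul_apply,
      sym_apply, P.Dspec, map_smul, map_add, map_smul, smul_add, smul_smul, ← add_smul]
    congr 2
    field_simp
    ring
  refine spGL_le_of_spTrans M fun y k => ?_
  rcases eq_or_ne y 0 with rfl | hy
  · rw [spTrans_zero_vec]; exact M.one_mem
  have hne0 : pu w₀ p₀ ≠ 0 := fun h => hp₀0 (P.pu_inj hw₀ (h.trans (map_zero _).symm))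
  refine closed_univ h2 (C := Cs) (T := Ts) hsmul hadd hTC ?_ ?_ (z₀ := pu w₀ p₀)
    ⟨w₀, p₀, hw₀, ⟨hp₀0, hp₀, hp₀L⟩, rfl⟩ hne0 y hy k
  · intro v hv
    refine P.T.span v fun x u => ?_
    rw [← P.Dspec]
    rcases eq_or_ne x 0 with rfl | hx
    · simp
    have hle : Submodule.span F PP ≤ LinearMap.ker (s (D x v)) :=
      Submodule.span_le.mpr fun p hp => by
        have h' := hv _ ⟨x, p, hx, hp, rfl⟩
        rw [beta_swap v (pu x p), neg_eq_zero, ← P.Dspec] at h'
        exact h'
    exact hle (hspan ▸ Submodule.mem_top)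
  · rintro S' ⟨t₀, ⟨x₀, q₀, hx₀, hq₀, rfl⟩, ht₀S, -⟩ hS' t ⟨x, q, hx, hq', rfl⟩
    obtain ⟨x₁, h1, h1'⟩ := P.T.exists_pairing hx₀ hx
    have hx₁ : x₁ ≠ 0 := fun h => h1 (by rw [h, map_zero])
    -- a member pairing with both
    obtain ⟨p₃, hp₃, a1, a2⟩ : ∃ p₃ ∈ PP, s q₀ p₃ ≠ 0 ∧ s p₃ q ≠ 0 := by
      obtain ⟨hq₀0, hq₀q, -⟩ := id hq₀
      obtain ⟨hq0, hqq, -⟩ := id hq'
      suffices ∃ z, s z z ≠ 0 ∧ s q₀ z ≠ 0 ∧ s q₀ q - 2 / s z z * s q₀ z * s z q ≠ 0 by
        obtain ⟨z, hz, hz1, hz2⟩ := this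
        refine ⟨refl s z q₀, hPr z hz _ hq₀, ?_, ?_⟩
        · rw [refl_apply, map_sub, hq₀q, map_smul, smul_eq_mul, zero_sub, neg_ne_zero]
          exact mul_ne_zero (mul_ne_zero (div_ne_zero h2 hz) hz1) hz1
        · rw [refl_apply, map_sub, map_smul, LinearMap.sub_apply, LinearMap.smul_apply, smul_eq_mul]
          exact hz2
      by_cases hqq' : s q₀ q = 0
      · obtain ⟨u, hu1, hu2⟩ : ∃ u, s q₀ u ≠ 0 ∧ s u q ≠ 0 := by
          obtain ⟨u₁, hu₁⟩ : ∃ u, s q₀ u ≠ 0 := by
            by_contra hc; push Not at hc; exact hq₀0 (P.T.snd _ hc)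
          obtain ⟨u₂, hu₂⟩ : ∃ u, s u q ≠ 0 := by
            by_contra hc; push Not at hc
            exact hq0 (P.T.snd _ fun v => by rw [P.T.sym]; exact hc v)
          by_cases h : s u₁ q = 0
          swap
          · exact ⟨u₁, hu₁, h⟩
          by_cases h' : s q₀ u₂ = 0
          swap
          · exact ⟨u₂, h', hu₂⟩
          exact ⟨u₁ + u₂, by simp [h', hu₁], by simp [h, hu₂]⟩
        have fin : ∀ z, s z z ≠ 0 → s q₀ z ≠ 0 → s z q ≠ 0 →
            ∃ z, s z z ≠ 0 ∧ s q₀ z ≠ 0 ∧ s q₀ q - 2 / s z z * s q₀ z * s z q ≠ 0 := fun z hz a b =>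
          ⟨z, hz, a, by
            rw [hqq', zero_sub, neg_ne_zero]
            exact mul_ne_zero (mul_ne_zero (div_ne_zero h2 hz) a) b⟩
        by_cases hu : s u u = 0
        · refine fin (u + q) ?_ ?_ ?_
          · simp only [map_add, LinearMap.add_apply, hu, hqq, P.T.sym q u, zero_add, add_zero, ← two_mul]
            exact mul_ne_zero h2 hu2
          · simpa [hqq'] using hu1
          · simpa [hqq] using hu2
        · exact fin u hu hu1 hu2
      · have hK : ∃ u ∈ LinearMap.ker (s q), s u u ≠ 0 := by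
          by_contra hc
          push Not at hc
          have hle : LinearMap.ker (s q) ≤ Submodule.span F {q} := by
            intro u hu
            have hzero : ∀ k ∈ LinearMap.ker (s q), s u k = 0 := fun k hk =>
              apply_eq_zero_of_singular s P.T.sym h2 hc hu hk
            refine Submodule.mem_span_singleton.mpr ⟨s u q₀ / s q q₀, ?_⟩
            rw [← sub_eq_zero]
            refine P.T.snd _ fun v => ?_
            have hqq0 : s q q₀ ≠ 0 := by rw [P.T.sym]; exact hqq'
            have hk : v - (s q v / s q q₀) • q₀ ∈ LinearMap.ker (s q) := by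
              simp [div_mul_cancel₀ _ hqq0]
            have := hzero _ hk
            simp only [map_sub, map_smul, LinearMap.sub_apply, LinearMap.smul_apply, smul_eq_mul] at this ⊢
            linear_combination (-1 : F) * this
          have h1' := Submodule.finrank_mono hle
          have h2' := finrank_span_singleton (K := F) hq0
          have h3 : finrank F (LinearMap.ker (s q)) + 1 = finrank F B :=
            Dual.finrank_ker_add_one_of_ne_zero fun h => hqq' (by rw [P.T.sym, h, LinearMap.zero_apply])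
          omega
        obtain ⟨z, hz, hzL, hz0⟩ := exists_nonsingular_notMem s P.T.sym h2 (LinearMap.ker (s q))
          (LinearMap.ker (s q₀)) hK fun hle => hqq' (LinearMap.mem_ker.mp (hle (LinearMap.mem_ker.mpr hqq)))
        refine ⟨z, hz0, hzL, ?_⟩
        rw [P.T.sym z q, LinearMap.mem_ker.mp hz, mul_zero, sub_zero]
        exact hqq'
    exact hS' _ ⟨x₁, p₃, hx₁, hp₃, rfl⟩
      (hS' _ ⟨x₀, q₀, hx₀, hq₀, rfl⟩ ht₀S _ ⟨x₁, p₃, hx₁, hp₃, rfl⟩
        (by rw [P.T.form]; exact mul_ne_zero h1 a1)) _ ⟨x, q, hx, hq', rfl⟩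
      (by rw [P.T.form, P.T.ωswap x x₁]; exact mul_ne_zero (neg_ne_zero.mpr h1') a2)

end Cfsg.Agent.H1.SpT.ST
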