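import Cfsg.Agent.H1.SpT.Conjugates
import Cfsg.Agent.H25.GeoLists.SpTensor.Maximal

/-!
The stabiliser of a decomposition of the alternating form as (alternating form in dimension at least four) ⊗
(symmetric form in dimension at least three) is maximal in the symplectic group.
-/

set_option autoImplicit false
set_option linter.unusedSectionVars false

namespace Cfsg.Agent.H1.SpT

open scoped Matrix Kronecker
open Cfsg.Agent.H98 Module Cfsg.Agent.H25.GeoLists
open Cfsg.Agent.H1.TensorNM

attribute [-simp] Cfsg.Agent.H2.sympBilin_apply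

theorem three_le_card {F : Type*} [Field F] [Fintype F] (h2 : (2 : F) ≠ 0) : 3 ≤ Fintype.card F := by
  classical
  have h : ({0, 1, -1} : Finset F).card = 3 := by
    have n : (1 : F) ≠ -1 := fun h => h2 (by linear_combination h)
    rw [Finset.card_insert_of_notMem (by simp), Finset.card_pair n]
  exact h ▸ Finset.card_le_univ _

/-- The stabiliser of a tensor decomposition `a × b` of the alternating form, `4 ≤ a`, is maximal. -/
theorem sp_tensor_maximal {m na b : ℕ} {F : Type*} [Field F] [Fintype F] (ha4 : 4 ≤ na) (hb : 3 ≤ b)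
    (hodd : Odd (Fintype.card F)) (hex : ¬ (Fintype.card F = 3 ∧ b = 3)) (e : (Fin m ⊕ Fin m) ≃ Fin na × Fin b)
    (P : Matrix.GeneralLinearGroup (Fin m ⊕ Fin m) F) (f₁ : (Fin na → F) → (Fin na → F) → F)
    (f₂ : (Fin b → F) → (Fin b → F) → F) (hf₁ : Cfsg.Geo.IsSymplecticForm f₁) (hf₂ : Cfsg.Geo.IsSymmetricForm f₂)
    (hT : Cfsg.Geo.IsTensorFormStructure id (Cfsg.sympForm m F) f₁ f₂ e P) :
    Cfsg.Geo.IsMaximalIn (Cfsg.spGL m F) (Cfsg.Geo.tensorProductSubgroup na b e P ⊓ Cfsg.spGL m F) := by
  classical
  obtain ⟨c, hc, hT⟩ := hT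
  have h2 : (2 : F) ≠ 0 := fun h => by
    haveI : CharP F 2 := CharTwo.of_one_ne_zero_of_two_eq_zero one_ne_zero h
    exact Nat.not_even_iff_odd.mpr hodd (Nat.even_iff.mpr (FiniteField.even_card_iff_char_two.mp (ringChar.eq F 2)))
  have hs₁ : Sesq (RingHom.id F) (-1) f₁ := ⟨hf₁.bilinear.add_left, hf₁.bilinear.smul_left,
    fun x y => by rw [hf₁.skew y x, RingHom.id_apply, neg_one_mul]⟩
  have hs₂ : Sesq (RingHom.id F) 1 f₂ := ⟨hf₂.bilinear.add_left, hf₂.bilinear.smul_left,
    fun x y => by rw [hf₂.symm y x, RingHom.id_apply, one_mul]⟩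
  set ω := c • bilinOf f₁ hf₁.bilinear with hω
  set s := bilinOf f₂ hf₂.bilinear with hs
  set pu : (Fin na → F) →ₗ[F] (Fin b → F) →ₗ[F] (Fin m ⊕ Fin m → F) :=
    pure.compr₂ (tensorEquiv e P).toLinearMap with hpu
  have hpu' : ∀ x u, pu x u = tensorEquiv e P (pure x u) := fun x u => rfl
  have hωnd : ∀ x, (∀ y, ω x y = 0) → x = 0 := fun x hx => by
    by_contra h0
    obtain ⟨-, y, hy⟩ := hf₁.nondegenerate x h0
    exact hy ((mul_eq_zero.mp (hx y)).resolve_left hc)
  have hωN : LinearMap.BilinForm.Nondegenerate ω := by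
    refine ⟨hωnd, fun y hy => hωnd y fun x => ?_⟩
    have := hy x
    simp only [hω, LinearMap.smul_apply, bilinOf, LinearMap.mk₂_apply, smul_eq_mul] at this ⊢
    rw [hf₁.skew, mul_neg, this, neg_zero]
  have hform : ∀ x u y v, Cfsg.Agent.H2.sympBilin m F (pu x u) (pu y v) = ω x y * s u v := by
    intro x u y v
    rw [Cfsg.Agent.H2.sympBilin_apply, hpu', hpu', tensorEquiv_apply, tensorEquiv_apply, hT]
    show c * Cfsg.Geo.formOfGram (RingHom.id F) _ _ _ = _
    rw [gram_pure hs₁ hs₂]
    simp [hω, hs, bilinOf, mul_assoc]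
  set C : (Fin b → F) →ₗ[F] (Fin m ⊕ Fin m → F) →ₗ[F] (Fin na → F) :=
    LinearMap.mk₂ F (fun u v => (LinearMap.BilinForm.toDual ω hωN).symm
      ((Cfsg.Agent.H2.sympBilin m F v).comp (pu.flip u)))
      (fun u u' v => by simp only [map_add, LinearMap.comp_add])
      (fun r u v => by simp only [map_smul, LinearMap.comp_smul])
      (fun u v v' => by simp only [map_add, LinearMap.add_comp])
      (fun r u v => by simp only [map_smul, LinearMap.smul_comp]) with hC
  have hsnd : ∀ u, (∀ v, s u v = 0) → u = 0 := fun u hu => by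
    by_contra h0
    obtain ⟨-, y, hy⟩ := hf₂.nondegenerate u h0
    exact hy (hu y)
  have hsN : LinearMap.BilinForm.Nondegenerate s :=
    ⟨hsnd, fun v hv => hsnd v fun u => (hf₂.symm v u).trans (hv u)⟩
  set D : (Fin na → F) →ₗ[F] (Fin m ⊕ Fin m → F) →ₗ[F] (Fin b → F) :=
    LinearMap.mk₂ F (fun x v => (LinearMap.BilinForm.toDual s hsN).symm
      ((Cfsg.Agent.H2.sympBilin m F v).comp (pu x)))
      (fun x x' v => by simp only [map_add, LinearMap.comp_add])
      (fun r x v => by simp only [map_smul, LinearMap.comp_smul])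
      (fun x v v' => by simp only [map_add, LinearMap.add_comp])
      (fun r x v => by simp only [map_smul, LinearMap.smul_comp]) with hD
  have hinjA : ∀ g : (Fin na → F) →ₗ[F] (Fin na → F), (∀ x y, ω (g x) (g y) = ω x y) → Function.Injective g :=
    fun g hg => (injective_iff_map_eq_zero g).mpr fun x hx => hωnd x fun y => by
      rw [← hg, hx, map_zero, LinearMap.zero_apply]
  have mk : ∀ M : Subgroup (GL (Fin m ⊕ Fin m) F), M ≤ Cfsg.spGL m F →
      Cfsg.Geo.tensorProductSubgroup na b e P ⊓ Cfsg.spGL m F ≤ M → ST M ω s pu C D := by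
    intro M hMK hHM
    refine ⟨
      { two := h2
        alt := fun x => by simp [hω, bilinOf, hf₁.alternating]
        sym := fun u v => hf₂.symm u v
        ωnd := hωnd
        snd := hsnd
        form := hform
        adj := fun u v x => by
          rw [hC, LinearMap.mk₂_apply, LinearMap.BilinForm.apply_toDual_symm_apply]
          rfl
        span := fun v hv => ?_
        sp := hMK
        isom := fun g k hg hk => ?_ }, fun x v u => by
          rw [hD, LinearMap.mk₂_apply, LinearMap.BilinForm.apply_toDual_symm_apply]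
          rfl⟩
    · refine (Cfsg.Agent.H2.sympBilin_nondegenerate m F).1 v fun y => ?_
      obtain ⟨X, rfl⟩ := (tensorEquiv e P).surjective y
      exact congrArg (fun f => f X) (pu_ext (f := (Cfsg.Agent.H2.sympBilin m F v).comp (tensorEquiv e P).toLinearMap)
        (g := 0) fun x z => hv x z)
    · obtain ⟨h, hh, he⟩ := exists_pure_elem e P g k (hinjA g hg)
        ((injective_iff_map_eq_zero k).mpr fun u hu => hsnd u fun v => by
          rw [← hk, hu, map_zero, LinearMap.zero_apply])
      refine ⟨h, hHM ⟨hh, mem_spGL.mpr fun u v => ?_⟩, fun x u => he x u⟩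
      obtain ⟨X, rfl⟩ := (tensorEquiv e P).surjective u
      obtain ⟨Y, rfl⟩ := (tensorEquiv e P).surjective v
      set L := (Matrix.mulVecLin (h : Matrix (Fin m ⊕ Fin m) (Fin m ⊕ Fin m) F)).comp (tensorEquiv e P).toLinearMap
      have key : ((Cfsg.Agent.H2.sympBilin m F).compl₁₂ L L) =
          (Cfsg.Agent.H2.sympBilin m F).compl₁₂ (tensorEquiv e P).toLinearMap (tensorEquiv e P).toLinearMap := by
        refine pu_ext fun x z => pu_ext fun y w => ?_
        simp only [LinearMap.compl₁₂_apply, L, LinearMap.comp_apply, LinearEquiv.coe_coe, Matrix.mulVecLin_apply, he]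
        rw [← hpu', ← hpu', ← hpu', ← hpu', hform, hform, hg, hk]
      exact congrArg (fun f => f X Y) key
  refine isMaximalIn_of inf_le_right ?_ ?_
  · have T := (mk _ le_rfl inf_le_right).T
    obtain ⟨u, -, hu⟩ := exists_perp s T.sym h2 hsnd (Fin.elim0 : Fin 0 → _) (fun i => i.elim0) (fun i => i.elim0)
      (by rw [Module.finrank_fin_fun]; omega)
    obtain ⟨w, hw, hw0⟩ := exists_perp s T.sym h2 hsnd ![u] (fun i => by simpa using hu)
      (fun i j hij => absurd (Subsingleton.elim i j) hij) (by rw [Module.finrank_fin_fun]; omega)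
    have hwu : s w u = 0 := by simpa using hw 0
    haveI : NeZero na := ⟨by omega⟩
    set a : Fin na → F := Pi.single 0 1
    obtain ⟨a', ha'⟩ := T.exists_one (α := a) (by simp [a])
    refine ⟨spTrans (pu a u) 1, spTrans_mem _ _, fun hH => ?_⟩
    obtain ⟨G, k, hGk⟩ := exists_action e P _ hH.1
    -- the image of a pure tensor pairing with the centre is not pure
    set x := pu a' (u + w)
    have himg : (spTrans (pu a u) 1 : Matrix (Fin m ⊕ Fin m) (Fin m ⊕ Fin m) F) *ᵥ x =
        pu a' (u + w) + (-(s u u)) • pu a u := by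
      rw [spTrans_mulVec, T.form, T.ωswap a a', ha', map_add, LinearMap.add_apply, hwu, add_zero, one_mul,
        neg_one_mul]
    rw [show x = tensorEquiv e P (pure a' (u + w)) from rfl, hGk] at himg
    have e1 := congrArg (C w) himg
    have e2 := congrArg (C u) himg
    rw [← hpu', T.C_pu, map_add (C w), map_smul (C w), T.C_pu, T.C_pu, map_add s, LinearMap.add_apply,
      T.sym u w, hwu, zero_smul, smul_zero, zero_add, add_zero] at e1
    rw [← hpu', T.C_pu, map_add (C u), map_smul (C u), T.C_pu, T.C_pu, map_add s, LinearMap.add_apply, hwu,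
      add_zero] at e2
    have hne : s (k (u + w)) w ≠ 0 := fun h0 => by
      rw [h0, zero_smul] at e1
      have : a' = 0 := (smul_eq_zero.mp e1.symm).resolve_left hw0
      rw [this, map_zero] at ha'
      exact zero_ne_one ha'
    have e3 : G a' = (s (k (u + w)) w)⁻¹ • s w w • a' := by rw [← e1, inv_smul_smul₀ hne]
    rw [e3] at e2
    have := congrArg (fun z => ω z a') e2
    simp only [map_add, map_smul, map_neg, LinearMap.add_apply, LinearMap.smul_apply, LinearMap.neg_apply, T.alt, ha',
      smul_zero, smul_eq_mul, mul_zero, mul_one, zero_add] at this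
    exact mul_ne_zero (neg_ne_zero.mpr hu) hu this.symm
  · intro M hHM hMK g hg hgH
    have T := mk M hMK hHM
    have hbB : finrank F (Fin b → F) = b := Module.finrank_fin_fun F
    have hq : (∃ t : F, t ≠ 0 ∧ t * t ≠ 1) ∨ 4 ≤ finrank F (Fin b → F) := by
      rw [hbB]
      by_contra hc
      push Not at hc
      refine hex ⟨le_antisymm ?_ (three_le_card h2), by omega⟩
      have hsub : (Finset.univ : Finset F) ⊆ {0, 1, -1} := fun t _ => by
        rcases eq_or_ne t 0 with rfl | ht
        · simp
        · rcases mul_self_eq_one_iff.mp (hc.1 t ht) with rfl | rfl <;> simp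
      exact (Finset.card_le_card hsub).trans Finset.card_le_three
    by_cases hgood : Good M pu D
    · obtain ⟨G, k, h⟩ := T.pure_of_good hgood (by omega) hq (by rw [Module.finrank_fin_fun]; exact ha4) hg
      exact absurd ⟨mem_of_pure_action (by omega) (by omega) e P g G k h, hMK hg⟩ hgH
    · exact T.sp_le_of_not_good (by omega) hq hgood

/-- A symplectic form lives in even dimension. -/
theorem even_of_symplectic {n : ℕ} {F : Type*} [Field F] (h2 : (2 : F) ≠ 0) (f : (Fin n → F) → (Fin n → F) → F)
    (hf : Cfsg.Geo.IsSymplecticForm f) : Even n := by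
  classical
  set b := bilinOf f hf.bilinear with hb
  set A := LinearMap.BilinForm.toMatrix' b with hA
  have hAt : A.transpose = -A := by
    ext i j
    rw [Matrix.transpose_apply, Matrix.neg_apply, hA, LinearMap.BilinForm.toMatrix'_apply,
      LinearMap.BilinForm.toMatrix'_apply]
    exact hf.skew _ _
  have hd : A.det ≠ 0 := by
    have hn : LinearMap.BilinForm.Nondegenerate b := by
      refine ⟨fun v hv => ?_, fun v hv => ?_⟩ <;> by_contra h0
      · obtain ⟨-, y, hy⟩ := hf.nondegenerate v h0
        exact hy (hv y)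
      · obtain ⟨-, y, hy⟩ := hf.nondegenerate v h0
        refine hy ?_
        rw [hf.skew]
        exact neg_eq_zero.mpr (hv y)
    exact LinearMap.BilinForm.nondegenerate_toMatrix'_iff.mpr hn |> Matrix.nondegenerate_iff_det_ne_zero.mp
  by_contra ho
  have := congrArg Matrix.det hAt
  rw [Matrix.det_transpose, Matrix.det_neg, Fintype.card_fin, (Nat.not_even_iff_odd.mp ho).neg_one_pow] at this
  exact hd ((mul_eq_zero.mp (show (2 : F) * A.det = 0 by linear_combination this)).resolve_left h2)

end Cfsg.Agent.H1.SpT
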