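import Cfsg.Agent.H1.SpT.Radical

/-!
An element fixing a layer vector by vector, or commuting with a root element of a layer, is a tensor product.
-/

set_option autoImplicit false
set_option linter.unusedSectionVars false

namespace Cfsg.Agent.H1.SpT.ST

open scoped Matrix
open Cfsg.Agent.H98 Cfsg.Agent.H25.GeoLists Module

attribute [-simp] Cfsg.Agent.H2.sympBilin_apply

variable {m : ℕ} {F : Type*} [Field F] {A B : Type*} [AddCommGroup A] [Module F A] [AddCommGroup B] [Module F B]
variable {M : Subgroup (GL (Fin m ⊕ Fin m) F)} {ω : A →ₗ[F] A →ₗ[F] F} {s : B →ₗ[F] B →ₗ[F] F}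
  {pu : A →ₗ[F] B →ₗ[F] (Fin m ⊕ Fin m → F)} {C : B →ₗ[F] (Fin m ⊕ Fin m → F) →ₗ[F] A}
  {D : A →ₗ[F] (Fin m ⊕ Fin m → F) →ₗ[F] B}
  [Fintype F] [FiniteDimensional F A] [FiniteDimensional F B]

local notation "V" => (Fin m ⊕ Fin m → F)
local notation "β" => Cfsg.Agent.H2.sympBilin m F

variable (P : ST M ω s pu C D)
include P

theorem rad_of_move {w x₁ : A} (hx : ω x₁ w = 1) {g : GL (Fin m ⊕ Fin m) F} (hg : g ∈ M)
    (hfix : ∀ u, op g (pu w u) = pu w u)
    (h : ∀ z, D w z = 0 → ∀ q, ω q w = 0 → D q (op g z - z) = 0) :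
    ∃ Φ : A →ₗ[F] Module.End F B, Rad M ω pu w g Φ := by
  let Φ : A →ₗ[F] Module.End F B :=
    { toFun := fun x => - (D x₁).comp ((op g - 1).comp (pu x))
      map_add' := fun x y => LinearMap.ext fun u => by simp; abel
      map_smul' := fun c x => LinearMap.ext fun u => by simp [smul_sub] }
  refine ⟨Φ, hg, hfix, fun x hxw u => ?_⟩
  have hz : D w (pu x u) = 0 := by
    rw [P.D_pu, hxw, zero_smul]
  have e := P.eq_layer_of_D hx (P.D_move hg hfix (pu x u)) (h (pu x u) hz)
  show _ = pu x u + pu w (- D x₁ (op g (pu x u) - pu x u))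
  rw [← e]; abel

/-- An element fixing a layer vector by vector is a tensor product with trivial second factor. -/
theorem fix_pure (hgood : Good M pu D) (hb : 3 ≤ finrank F B)
    (hq3 : (∃ t : F, t ≠ 0 ∧ t * t ≠ 1) ∨ 4 ≤ finrank F B) {w x₁ : A} (hx : ω x₁ w = 1)
    {g : GL (Fin m ⊕ Fin m) F} (hg : g ∈ M) (hfix : ∀ u, op g (pu w u) = pu w u) :
    ∃ G : Module.End F A, ∀ x u, op g (pu x u) = pu (G x) u := by
  classical
  have hginv : ∀ v, op g (op g⁻¹ v) = v := fun v => by
    rw [← Module.End.mul_apply, op_mul_inv, Module.End.one_apply]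
  have hginv' : ∀ v, op g⁻¹ (op g v) = v := fun v => by
    rw [← Module.End.mul_apply, op_inv_mul, Module.End.one_apply]
  have hfix' := fun u => P.fix_inv hfix u
  -- conjugates of the radical tensor products
  have shift : ∀ q, ω q w = 0 → ∃ q', ω q' w = 0 ∧ ∀ z, D w z = 0 → D q' z = D q (op g⁻¹ z) := by
    intro q hq
    obtain ⟨h, Ψ, hh, -, -, hz⟩ := P.exists_rad hq
    have hconj : ∀ z, D w z = 0 → op (g * h * g⁻¹) z = z + pu w (D q (op g⁻¹ z)) := fun z hz' => by
      rw [op_mul, op_mul, Module.End.mul_apply, Module.End.mul_apply,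
        hz _ (by rw [P.D_fix (M.inv_mem hg) hfix', hz']), map_add, hginv, hfix]
    have he : g * h * g⁻¹ ∈ M := M.mul_mem (M.mul_mem hg hh.mem) (M.inv_mem hg)
    have hef : ∀ u, op (g * h * g⁻¹) (pu w u) = pu w u := fun u => by
      simp only [op_mul, Module.End.mul_apply, hfix', hh.fix, hfix]
    obtain ⟨Φ, hΦ⟩ := P.rad_of_move hx he hef fun z hz' r hr => by
      rw [hconj z hz', add_sub_cancel_left, P.D_pu, P.T.ωswap r w, hr, neg_zero, zero_smul]
    obtain ⟨q', hq', hq'z, -⟩ := P.rad_pure hgood hb hx hΦ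
    refine ⟨q', hq', fun z hz' => ?_⟩
    have := (hq'z z hz').symm.trans (hconj z hz')
    exact P.pu_inj (fun h0 => by simp [h0] at hx) (add_left_cancel this)
  -- commutation with the reflections
  have comm : ∀ c, s c c ≠ 0 → ∀ x u, op g (pu x (refl s c u)) =
      op g (pu x u) - (2 / s c c) • pu (C c (op g (pu x u))) c := by
    intro c hc
    obtain ⟨r, hr, hre⟩ := P.exists_elem 1 (refl s c) (fun _ _ => rfl) (P.T.refl_isom hc)
    obtain ⟨z, hz, hzv⟩ := P.T.exists_z hc
    have hrz : ∀ v, op r v = v - (2 / s c c) • pu (C c v) c := fun v => by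
      have e : op r = op z := P.T.ext_pu fun x u => by
        rw [hre, op_apply, hzv, P.T.C_pu, refl_apply]
        simp [smul_smul]
      rw [e, op_apply, hzv]
    have rr : ∀ u, refl s c (refl s c u) = u := fun u => by
      simp only [refl_apply, map_sub, map_smul, LinearMap.sub_apply, LinearMap.smul_apply, smul_eq_mul]
      match_scalars <;> field_simp <;> ring
    have r2 : op r * op r = 1 := P.T.ext_pu fun x u => by simp [hre, rr]
    have hDr : ∀ x v, D x (op r v) = refl s c (D x v) := fun x v => P.sext fun u => by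
      rw [P.Dspec]
      have : pu x u = op r (pu x (refl s c u)) := by rw [hre, rr]; rfl
      rw [this, P.mem_beta hr, ← P.Dspec, ← P.T.refl_isom hc (D x v) (refl s c u), rr]
    have hrfix : ∀ u, op r (pu w u) = pu w (refl s c u) := fun u => by rw [hre]; rfl
    set e := g * r * g⁻¹ * r with he
    have hem : e ∈ M := M.mul_mem (M.mul_mem (M.mul_mem hg hr) (M.inv_mem hg)) hr
    have hef : ∀ u, op e (pu w u) = pu w u := fun u => by
      simp only [he, op_mul, Module.End.mul_apply, hrfix, hfix', hfix, rr]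
    have hrinv : r⁻¹ = r := inv_eq_of_mul_eq_one_right (op_inj (by rw [op_mul, r2, op_one]))
    obtain ⟨Φ, hΦ⟩ := P.rad_of_move hx hem hef fun v hv q hq => by
      have hv1 : D w (op r v) = 0 := by rw [hDr, hv, map_zero]
      have hv2 : D w (op g⁻¹ (op r v)) = 0 := by rw [P.D_fix (M.inv_mem hg) hfix', hv1]
      -- the difference of the two orders
      set y := op g⁻¹ (op r v) with hy
      set d := op g (op r y) - op r (op g y) with hd
      have hd0 : D w d = 0 := by
        rw [hd, map_sub, P.D_fix hg hfix, hDr, hDr, P.D_fix hg hfix, sub_self]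
      have hdq : ∀ q, ω q w = 0 → D q (op g⁻¹ d) = 0 := fun q hq => by
        obtain ⟨q', -, hq'⟩ := shift q hq
        rw [hd, map_sub, map_sub, hginv', hDr, ← hq' (op r (op g y)) (by rw [hDr, P.D_fix hg hfix, hv2, map_zero]),
          hDr, hq' (op g y) (by rw [P.D_fix hg hfix, hv2]), hginv', sub_self]
      have hdW := P.eq_layer_of_D hx (by rw [P.D_fix (M.inv_mem hg) hfix', hd0]) hdq
      have hd' : d = pu w (- D x₁ (op g⁻¹ d)) := by
        have := congrArg (op g) hdW
        rwa [hginv, hfix] at this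
      have hev : op e v - v = d := by
        have e2 : op r (op r v) = v := by rw [← Module.End.mul_apply, r2, Module.End.one_apply]
        simp only [he, hd, hy, op_mul, Module.End.mul_apply, hginv, e2]
      rw [hev, hd', P.D_pu, P.T.ωswap q w, hq, neg_zero, zero_smul]
    obtain ⟨q, -, -, G, hG⟩ := P.rad_pure hgood hb hx hΦ
    have hcomm : op e * op r = op r * op e := P.T.ext_pu fun x u => by
      simp only [Module.End.mul_apply, hre, hG]
      rfl
    have rr1 : r * r = 1 := op_inj (by rw [op_mul, r2, op_one])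
    have he2 : e * e = 1 := by
      have hc' : e * r = r * e := op_inj ((op_mul e r).trans (hcomm.trans (op_mul r e).symm))
      have hc'' : e = r * e * r := by rw [← hc', mul_assoc, rr1, mul_one]
      calc e * e = e * (r * e * r) := by rw [← hc'']
        _ = g * r * g⁻¹ * (r * r) * (g * r * g⁻¹) * (r * r) := by rw [he]; group
        _ = 1 := by
          rw [rr1, mul_one, mul_one]
          calc g * r * g⁻¹ * (g * r * g⁻¹) = g * (r * r) * g⁻¹ := by group
            _ = 1 := by rw [rr1, mul_one, mul_inv_cancel]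
    have he1 : op e = 1 := by
      have hee : ∀ v, op e (op e v) = v := fun v => by
        rw [← Module.End.mul_apply, ← op_mul, he2, op_one, Module.End.one_apply]
      have low : ∀ v, D w v = 0 → op e v = v := fun v hv => by
        have h1 := P.rad_apply hx hΦ hv
        have h2 : v + pu w (- D x₁ (op e v - v)) + pu w (- D x₁ (op e v - v)) = v := by
          have h2' := hee v
          conv at h2' => lhs; arg 2; rw [h1]
          rw [map_add, hΦ.fix] at h2'
          nth_rewrite 1 [← h1]
          exact h2'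
        have h3 : (2 : F) • pu w (- D x₁ (op e v - v)) = 0 := by
          rw [two_smul]
          rw [add_assoc, add_eq_left] at h2
          exact h2
        rw [h1, (smul_eq_zero.mp h3).resolve_left P.T.two, add_zero]
      refine LinearMap.ext fun v => ?_
      have h4 := low _ (P.D_move hem hef v)
      rw [map_sub, hee] at h4
      have h5 : (2 : F) • (op e v - v) = 0 := by
        rw [two_smul]
        exact eq_neg_iff_add_eq_zero.mp (by rw [neg_sub]; exact h4.symm)
      exact sub_eq_zero.mp ((smul_eq_zero.mp h5).resolve_left P.T.two)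
    intro x u
    have hgr : g * r = r * g := by
      have : e = 1 := op_inj (by rw [he1, op_one])
      rw [he] at this
      calc g * r = (g * r * g⁻¹ * r) * r⁻¹ * g := by group
        _ = r * g := by rw [this, one_mul, hrinv]
    rw [← hrz, show pu x (refl s c u) = op r (pu x u) by rw [hre]; rfl, ← Module.End.mul_apply, ← Module.End.mul_apply,
      ← op_mul, ← op_mul, hgr]
  -- the first factor
  obtain ⟨c₀, -, hc₀⟩ := exists_perp s P.T.sym P.T.two P.T.snd (![] : Fin 0 → B) (fun i => i.elim0)
    (fun i => i.elim0) (by omega)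
  have hc₀0 : c₀ ≠ 0 := fun h => hc₀ (by rw [h]; simp)
  let G : Module.End F A := (1 / s c₀ c₀) • (C c₀).comp ((op g).comp (pu.flip c₀))
  have hG0 : ∀ x, op g (pu x c₀) = pu (G x) c₀ := fun x => by
    have := comm c₀ hc₀ x c₀
    rw [refl_apply, div_mul_cancel₀ _ hc₀, two_smul, sub_add_cancel_left, map_neg, map_neg] at this
    have h2 : (2 : F) • op g (pu x c₀) = (2 / s c₀ c₀) • pu (C c₀ (op g (pu x c₀))) c₀ := by
      rw [two_smul]
      have h3 := eq_sub_iff_add_eq.mp this
      linear_combination (norm := module) -h3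
    calc op g (pu x c₀) = (2 : F)⁻¹ • ((2 : F) • op g (pu x c₀)) := by
          rw [smul_smul, inv_mul_cancel₀ P.T.two, one_smul]
      _ = pu (G x) c₀ := by
          rw [h2, smul_smul]
          simp only [G, LinearMap.smul_apply, LinearMap.comp_apply, map_smul, LinearMap.flip_apply]
          congr 1
          field_simp [P.T.two]
  let K : Submodule F B :=
    { carrier := {u | ∀ x, op g (pu x u) = pu (G x) u}
      add_mem' := fun {u v} hu hv x => by rw [map_add, map_add, hu x, hv x, map_add]
      zero_mem' := fun x => by simp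
      smul_mem' := fun a u hu x => by rw [map_smul, map_smul, hu x, map_smul] }
  have htop : K = ⊤ := by
    refine refl_invariant_eq_top s P.T.sym P.T.two P.T.snd (hq3.imp id fun h => by omega) K ?_ ?_
    · intro c hc u hu x
      rw [comm c hc, hu x, P.T.C_pu, refl_apply]
      simp [smul_smul]
    · intro h0
      have : c₀ ∈ K := hG0
      rw [h0, Submodule.mem_bot] at this
      exact hc₀0 this
  exact ⟨G, fun x u => (htop.ge Submodule.mem_top : u ∈ K) x⟩

/-- An element commuting with a root element of a layer is a tensor product. -/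
theorem commutes_pure (hgood : Good M pu D) (hb : 3 ≤ finrank F B)
    (hq3 : (∃ t : F, t ≠ 0 ∧ t * t ≠ 1) ∨ 4 ≤ finrank F B) {w : A} (hw : w ≠ 0)
    {g : GL (Fin m ⊕ Fin m) F} (hg : g ∈ M) (hc : op g * lay pu D w 1 = lay pu D w 1 * op g) :
    Pu pu g ∧ ∃ T : Module.End F B, ∀ u, op g (pu w u) = pu w (T u) := by
  obtain ⟨x₁, hx⟩ := P.exists_dual hw
  let T : Module.End F B := (D w).comp ((op g).comp (pu x₁))
  have hT : ∀ u, op g (pu w u) = pu w (T u) := fun u => by
    have := congrArg (fun f => f (pu x₁ u)) hc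
    simpa [lay_apply, P.D_pu, hx, T] using this
  have hTi : ∀ u u', s (T u) (T u') = s u u' := fun u u' => by
    have h1 := P.mem_beta hg (pu x₁ u) (pu w u')
    rw [hT, ← P.Dspec, P.T.form, hx, one_mul] at h1
    exact h1
  obtain ⟨h, hh, he⟩ := P.exists_elem 1 T (fun _ _ => rfl) hTi
  have hfix : ∀ u, op (h⁻¹ * g) (pu w u) = pu w u := fun u => by
    rw [op_mul, Module.End.mul_apply, hT, show pu w (T u) = op h (pu w u) by rw [he]; rfl, ← Module.End.mul_apply,
      op_inv_mul, Module.End.one_apply]
  obtain ⟨G, hG⟩ := P.fix_pure hgood hb hq3 hx (M.mul_mem (M.inv_mem hh) hg) hfix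
  refine ⟨⟨G, T, fun x u => ?_⟩, T, hT⟩
  calc op g (pu x u) = op h (op (h⁻¹ * g) (pu x u)) := by
        rw [← Module.End.mul_apply, ← op_mul, mul_inv_cancel_left]
    _ = pu (G x) (T u) := by rw [hG, he]; rfl

end Cfsg.Agent.H1.SpT.ST
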