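import Cfsg.Agent.H1.SpT.Layer
import Cfsg.Agent.H1.SpT.Stab

/-!
A quadratic element whose product with a root element of a layer is unipotent is a tensor product.
-/

set_option autoImplicit false
set_option linter.unusedSectionVars false

namespace Cfsg.Agent.H1.SpT

open scoped Matrix
open Cfsg.Agent.H98 Cfsg.Agent.H25.GeoLists Module

attribute [-simp] Cfsg.Agent.H2.sympBilin_apply

/-- Four commutators of two quadratic elements. -/
theorem four_commutators {R : Type*} [Ring R] (a n : R) (ha : a * a = 0) (hn : n * n = 0)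
    (h5 : a * (n * (a * (n * a))) = 0) :
    ((1 + a) * (1 + n) * (1 - a) * (1 - n)) * ((1 - a) * (1 + n) * (1 + a) * (1 - n)) =
      (1 - (a * n * a + a * n * a + a * n * a + a * n * a)) *
        (((1 + a) * (1 - n) * (1 - a) * (1 + n)) * ((1 - a) * (1 - n) * (1 + a) * (1 + n))) := by
  have ha' : ∀ x, a * (a * x) = 0 := fun x => by rw [← mul_assoc, ha, zero_mul]
  have hn' : ∀ x, n * (n * x) = 0 := fun x => by rw [← mul_assoc, hn, zero_mul]
  have h5' : ∀ x, a * (n * (a * (n * (a * x)))) = 0 := fun x => by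
    simp only [← mul_assoc] at h5 ⊢
    rw [h5, zero_mul]
  simp only [mul_add, add_mul, mul_sub, sub_mul, mul_assoc, mul_one, one_mul, ha, hn, ha', hn', h5, h5', mul_zero,
    zero_mul, add_zero, zero_add, sub_zero, zero_sub, mul_neg, neg_mul, neg_neg, neg_zero]
  abel

variable {m : ℕ} {F : Type*} [Field F] {A B : Type*} [AddCommGroup A] [Module F A] [AddCommGroup B] [Module F B]
variable {M : Subgroup (GL (Fin m ⊕ Fin m) F)} {ω : A →ₗ[F] A →ₗ[F] F} {s : B →ₗ[F] B →ₗ[F] F}
  {pu : A →ₗ[F] B →ₗ[F] (Fin m ⊕ Fin m → F)} {C : B →ₗ[F] (Fin m ⊕ Fin m → F) →ₗ[F] A}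
  {D : A →ₗ[F] (Fin m ⊕ Fin m → F) →ₗ[F] B}
  [Fintype F] [FiniteDimensional F A] [FiniteDimensional F B]

local notation "V" => (Fin m ⊕ Fin m → F)
local notation "β" => Cfsg.Agent.H2.sympBilin m F

namespace ST

variable (P : ST M ω s pu C D)
include P

theorem quad_sq {K : B →ₗ[F] V} {L : V →ₗ[F] B} (h : Root s K L) : K.comp L * K.comp L = 0 :=
  LinearMap.ext fun v => by simp [h.2]

theorem quad_inv {K : B →ₗ[F] V} {L : V →ₗ[F] B} (h : Root s K L) {y : GL (Fin m ⊕ Fin m) F}
    (hy : op y = 1 + K.comp L) : op y⁻¹ = 1 - K.comp L :=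
  op_inv_of (by rw [hy, mul_sub, mul_one, add_mul, one_mul, P.quad_sq h, add_zero, add_sub_cancel_right])

theorem root_elem (w : A) : ∃ a ∈ M, op a = 1 + lay pu D w 1 ∧ op a⁻¹ = 1 - lay pu D w 1 := by
  obtain ⟨a, ha, he⟩ := P.root_mem w 1
  rw [one_smul] at he
  refine ⟨a, ha, he, op_inv_of ?_⟩
  rw [he, mul_sub, mul_one, add_mul, one_mul, P.lay_mul_lay, add_zero, add_sub_cancel_right]

theorem lay_inj {w : A} (hw : w ≠ 0) {S S' : Module.End F B} (h : lay pu D w S = lay pu D w S') : S = S' := by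
  refine LinearMap.ext fun u => ?_
  obtain ⟨v, rfl⟩ := P.Dw_surj hw u
  exact P.pu_inj hw (congrArg (fun f => f v) h)

/-- A coefficient of square zero vanishes. -/
theorem eq_zero_of_sq (hgood : Good M pu D) (hb : 0 < finrank F B) {w : A} (hw : w ≠ 0) {K : B →ₗ[F] V}
    {L : V →ₗ[F] B} (hR : Root s K L) {y : GL (Fin m ⊕ Fin m) F} (hy : y ∈ M) (he : op y = 1 + K.comp L)
    (hS : (D w ∘ₗ K.comp L ∘ₗ pu w) * (D w ∘ₗ K.comp L ∘ₗ pu w) = 0) : D w ∘ₗ K.comp L ∘ₗ pu w = 0 := by
  set S : Module.End F B := D w ∘ₗ K.comp L ∘ₗ pu w with hSdef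
  obtain ⟨a, ha, hea, hea'⟩ := P.root_elem w
  have hey := P.quad_inv hR he
  set al := lay pu D w 1 with hal
  set N : Module.End F V := K.comp L with hN
  have hnan : al * N * al = lay pu D w S := LinearMap.ext fun v => by simp [hal, lay_apply, hSdef]
  have h5 : al * (N * (al * (N * al))) = 0 := by
    refine LinearMap.ext fun v => ?_
    have : S (S (D w v)) = 0 := congrArg (fun f => f (D w v)) hS
    simp only [hal, Module.End.mul_apply, lay_apply, Module.End.one_apply, LinearMap.zero_apply]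
    rw [show D w (N (pu w (D w (N (pu w (D w v)))))) = S (S (D w v)) from rfl, this, map_zero]
  have key := four_commutators al N (P.lay_mul_lay w 1 1) (P.quad_sq hR) h5
  let P₁ := a * y * a⁻¹ * y⁻¹ * (a⁻¹ * y * a * y⁻¹)
  let P₂ := a * y⁻¹ * a⁻¹ * y * (a⁻¹ * y⁻¹ * a * y)
  have hP₁ : P₁ ∈ M := by
    refine M.mul_mem ?_ ?_ <;> repeat' apply M.mul_mem
    all_goals first | assumption | exact M.inv_mem ha | exact M.inv_mem hy
  have hP₂ : P₂ ∈ M := by
    refine M.mul_mem ?_ ?_ <;> repeat' apply M.mul_mem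
    all_goals first | assumption | exact M.inv_mem ha | exact M.inv_mem hy
  have hX : op (P₁ * P₂⁻¹) = 1 + lay pu D w (-(S + S + S + S)) := by
    have h1 : op P₁ = (1 - (al * N * al + al * N * al + al * N * al + al * N * al)) * op P₂ := by
      simp only [P₁, P₂, op_mul, hea, hea', he, hey]
      rw [← key]
    rw [op_mul, h1, mul_assoc, op_mul_inv, mul_one, hnan]
    refine LinearMap.ext fun v => ?_
    simp [lay_apply]
    abel
  obtain ⟨c, hc⟩ := hgood w _ _ hw (M.mul_mem hP₁ (M.inv_mem hP₂)) hX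
  have h4 : (4 : F) ≠ 0 := by rw [show (4 : F) = 2 * 2 by norm_num]; exact mul_ne_zero P.T.two P.T.two
  have hs : S = (-c / 4) • 1 := by
    calc S = (-(4 : F)⁻¹) • (-(S + S + S + S)) := by
          rw [smul_neg, neg_smul, neg_neg, show S + S + S + S = (4 : F) • S by module, smul_smul,
            inv_mul_cancel₀ h4, one_smul]
      _ = _ := by rw [hc, smul_smul]; ring_nf
  rw [hs] at hS ⊢
  rw [smul_mul_smul_comm, one_mul, smul_eq_zero] at hS
  rcases hS with h | h
  · rw [mul_self_eq_zero.mp h, zero_smul]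
  · rw [h, smul_zero]

/-- A nilpotent coefficient vanishes. -/
theorem eq_zero_of_nilpotent (hgood : Good M pu D) (hb : 0 < finrank F B) {w : A} (hw : w ≠ 0) (n : ℕ) :
    ∀ {K : B →ₗ[F] V} {L : V →ₗ[F] B} {y : GL (Fin m ⊕ Fin m) F}, Root s K L → y ∈ M → op y = 1 + K.comp L →
      (D w ∘ₗ K.comp L ∘ₗ pu w : Module.End F B) ^ (2 ^ n) = 0 → D w ∘ₗ K.comp L ∘ₗ pu w = 0 := by
  induction n with
  | zero => intro K L y _ _ _ h; simpa using h
  | succ n ih =>
    intro K L y hR hy he h
    obtain ⟨a, ha, hea, -⟩ := P.root_elem w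
    set S : Module.End F B := D w ∘ₗ K.comp L ∘ₗ pu w with hS
    have hey := P.quad_inv hR he
    have hR' := P.root_conj (P.root_layer w) hy
    have he' : op (y * a * y⁻¹) = 1 + ((op y).comp (pu w)).comp ((D w).comp (op y⁻¹)) := by
      rw [op_mul, op_mul, hea, mul_add, mul_one, add_mul, op_mul_inv]
      rfl
    have hS' : D w ∘ₗ ((op y).comp (pu w)).comp ((D w).comp (op y⁻¹)) ∘ₗ pu w = - (S * S) := by
      refine LinearMap.ext fun u => ?_
      simp [he, hey, hS, P.D_self]
    have h' : (D w ∘ₗ ((op y).comp (pu w)).comp ((D w).comp (op y⁻¹)) ∘ₗ pu w : Module.End F B) ^ (2 ^ n) = 0 := by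
      rw [hS', neg_pow, ← pow_two, ← pow_mul, ← pow_succ', h, mul_zero]
    have h0 := ih hR' (M.mul_mem (M.mul_mem hy ha) (M.inv_mem hy)) he' h'
    rw [hS', neg_eq_zero] at h0
    exact P.eq_zero_of_sq hgood hb hw hR hy he h0

/-- A quadratic element with vanishing coefficient is a tensor product. -/
theorem pure_of_zero (hgood : Good M pu D) (hb : 3 ≤ finrank F B)
    (hq3 : (∃ t : F, t ≠ 0 ∧ t * t ≠ 1) ∨ 4 ≤ finrank F B) {w : A} (hw : w ≠ 0) {K : B →ₗ[F] V}
    {L : V →ₗ[F] B} (hR : Root s K L) {y : GL (Fin m ⊕ Fin m) F} (hy : y ∈ M) (he : op y = 1 + K.comp L)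
    (hS : D w ∘ₗ K.comp L ∘ₗ pu w = 0) : Pu pu y := by
  obtain ⟨x₁, hx⟩ := P.exists_dual hw
  obtain ⟨a, ha, hea, hea'⟩ := P.root_elem w
  have hey := P.quad_inv hR he
  set al := lay pu D w 1 with hal
  set N : Module.End F V := K.comp L with hN
  have hN2 : N * N = 0 := P.quad_sq hR
  have hal2 : al * al = 0 := P.lay_mul_lay w 1 1
  have hSu : ∀ u, D w (N (pu w u)) = 0 := fun u => congrArg (fun f => f u) hS
  have hana : al * N * al = 0 := LinearMap.ext fun v => by simp [hal, lay_apply, hSu]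
  set E : Module.End F V := al * N - N * al + N * al * N with hE
  set c := a * y * a⁻¹ * y⁻¹ with hc
  have hc0 : op c = 1 + E := by
    have hn' : ∀ x, N * (N * x) = 0 := fun x => by rw [← mul_assoc, hN2, zero_mul]
    have ha' : ∀ x, al * (al * x) = 0 := fun x => by rw [← mul_assoc, hal2, zero_mul]
    have hana' : ∀ x, al * (N * (al * x)) = 0 := fun x => by
      rw [← mul_assoc N, ← mul_assoc al, ← mul_assoc al, hana, zero_mul]
    have hana'' : al * (N * al) = 0 := by rw [← mul_assoc]; exact hana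
    simp only [hc, op_mul, hea, hea', he, hey, hE, mul_add, add_mul, mul_sub, sub_mul, mul_assoc, mul_one, one_mul,
      hN2, hal2, hn', ha', hana', hana'', mul_zero, add_zero, zero_add, sub_zero, zero_sub, mul_neg, neg_neg,
      neg_zero]
    abel
  have hcM : c ∈ M := M.mul_mem (M.mul_mem (M.mul_mem ha hy) (M.inv_mem ha)) (M.inv_mem hy)
  have hEw : ∀ u, E (pu w u) = 0 := fun u => by simp [hE, hal, lay_apply, P.D_self, hSu]
  obtain ⟨G, hG⟩ := P.fix_pure hgood hb hq3 hx hcM fun u => by
    rw [hc0, LinearMap.add_apply, Module.End.one_apply, hEw, add_zero]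
  have hEG : ∀ x u, E (pu x u) = pu (G x - x) u := fun x u => by
    have := hG x u
    rw [hc0, LinearMap.add_apply, Module.End.one_apply] at this
    rw [map_sub, LinearMap.sub_apply, ← this, add_sub_cancel_left]
  -- the image is the layer
  have hline : ∀ x, G x - x ∈ Submodule.span F {w} := by
    intro x
    by_contra hq
    obtain ⟨z, hz, hqz⟩ := P.T.exists_sep hq
    let T : Module.End F B := L.comp (pu w)
    let v : Module.End F B := (D w).comp ((N - 1).comp (pu x))
    have e : ∀ u, ω (G x - x) z • u = D z (K (T (v u))) := by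
      intro u
      rw [← P.D_pu, ← hEG]
      simp only [hE, hal, LinearMap.add_apply, LinearMap.sub_apply, Module.End.mul_apply, lay_apply,
        Module.End.one_apply, map_add, map_sub, P.D_pu, hz, zero_smul, zero_sub]
      simp only [T, v, LinearMap.comp_apply, LinearMap.sub_apply, Module.End.one_apply, map_sub, hN, P.D_pu]
      abel
    have hinj : Function.Injective (T * v) := (injective_iff_map_eq_zero _).mpr fun u hu => by
      have := e u
      rw [show T (v u) = 0 from hu, map_zero, map_zero, smul_eq_zero] at this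
      exact this.resolve_left hqz
    have hsurj : Function.Surjective T := fun u => by
      obtain ⟨u', hu'⟩ := (LinearMap.injective_iff_surjective.mp hinj) u
      exact ⟨v u', hu'⟩
    obtain ⟨b₀, -, hb₀⟩ := exists_perp s P.T.sym P.T.two P.T.snd (![] : Fin 0 → B) (fun i => i.elim0)
      (fun i => i.elim0) (by omega)
    obtain ⟨b, rfl⟩ := hsurj b₀
    refine hb₀ ?_
    show s (L (pu w b)) (L (pu w b)) = 0
    rw [hR.1, P.beta_layer, show K (L (pu w b)) = N (pu w b) from rfl, hSu]
    simp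
  let lam : A →ₗ[F] F := (ω x₁).comp (G - 1)
  have hlam : ∀ x, G x - x = lam x • w := fun x => by
    obtain ⟨r, hr⟩ := Submodule.mem_span_singleton.mp (hline x)
    simp [lam, ← hr, hx]
  obtain ⟨u₀, -, hu₀⟩ := exists_perp s P.T.sym P.T.two P.T.snd (![] : Fin 0 → B) (fun i => i.elim0)
    (fun i => i.elim0) (by omega)
  have hδ : ∀ x, lam x = lam x₁ * ω x w := fun x => by
    have h1 := P.mem_beta hcM (pu x u₀) (pu x₁ u₀)
    rw [hG, hG, P.T.form, P.T.form] at h1
    have h2 := mul_right_cancel₀ hu₀ h1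
    have e1 : G x = x + lam x • w := by rw [← hlam]; abel
    have e2 : G x₁ = x₁ + lam x₁ • w := by rw [← hlam]; abel
    simp only [e1, e2, map_add, map_smul, LinearMap.add_apply, LinearMap.smul_apply, smul_eq_mul, P.T.alt,
      P.T.ωswap x₁ w, hx] at h2
    linear_combination -h2
  have hEal : E = lam x₁ • al := P.T.ext_pu fun x u => by
    rw [hEG, hlam, hδ x]
    simp [hal, lay_apply, P.D_pu, smul_smul]
  have e1 : E * N = - (N * al * N) + al * N * N + N * al * (N * N) := by
    simp only [hE, add_mul, sub_mul, mul_assoc]; abel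
  have e2 : N * E = N * al * N - N * N * al + N * N * al * N := by
    simp only [hE, mul_add, mul_sub, mul_assoc]
  rw [mul_assoc al N N, hN2, mul_zero, mul_zero, add_zero, add_zero, hEal, smul_mul_assoc] at e1
  rw [hN2, zero_mul, zero_mul, sub_zero, add_zero, hEal, mul_smul_comm] at e2
  have hzero : E = 0 := by
    by_contra h0
    have hl : lam x₁ ≠ 0 := fun h => h0 (by rw [hEal, h, zero_smul])
    have h3 : al * N = -(N * al) := by
      have : lam x₁ • (al * N) = lam x₁ • (-(N * al)) := by rw [e1, smul_neg, e2]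
      exact smul_right_injective _ hl this
    have h4 : N * al * N = 0 := by
      rw [mul_assoc, h3]
      exact (mul_neg N (N * al)).trans (by rw [← mul_assoc N N al, hN2, zero_mul, neg_zero])
    rw [h4] at e2
    have h5 : N * al = 0 := (smul_eq_zero.mp e2).resolve_left hl
    rw [h5, neg_zero] at h3
    exact h0 (by rw [hE, h3, h5, zero_mul, sub_zero, add_zero])
  have hNaN : N * al * N = 0 := by
    rw [← e2, ← mul_smul_comm, ← hEal, hzero, mul_zero]
  have hcomm : N * al = al * N := by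
    have := hzero
    rw [hE, hNaN, add_zero, sub_eq_zero] at this
    exact this.symm
  exact (P.commutes_pure hgood hb hq3 hw hy (by rw [he, add_mul, mul_add, one_mul, mul_one, hcomm])).1

end ST

end Cfsg.Agent.H1.SpT
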