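import Cfsg.Agent.H1.SpT.Setup

/-!
Elements inducing the identity on the successive factors of the flag given by a layer.
-/

set_option autoImplicit false
set_option linter.unusedSectionVars false

namespace Cfsg.Agent.H1.SpT

open scoped Matrix
open Cfsg.Agent.H98 Cfsg.Agent.H25.GeoLists Module

attribute [-simp] Cfsg.Agent.H2.sympBilin_apply

variable {m : ℕ} {F : Type*} [Field F] {A B : Type*} [AddCommGroup A] [Module F A] [AddCommGroup B] [Module F B]
variable {M : Subgroup (GL (Fin m ⊕ Fin m) F)} {ω : A →ₗ[F] A →ₗ[F] F} {s : B →ₗ[F] B →ₗ[F] F}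
  {pu : A →ₗ[F] B →ₗ[F] (Fin m ⊕ Fin m → F)} {C : B →ₗ[F] (Fin m ⊕ Fin m → F) →ₗ[F] A}
  {D : A →ₗ[F] (Fin m ⊕ Fin m → F) →ₗ[F] B}
  [Fintype F] [FiniteDimensional F A] [FiniteDimensional F B]

local notation "V" => (Fin m ⊕ Fin m → F)
local notation "β" => Cfsg.Agent.H2.sympBilin m F

/-- An element of `M` fixing the layer of `w` and acting trivially on the layers above it, with the
coefficients `Φ`. -/
structure Rad (M : Subgroup (GL (Fin m ⊕ Fin m) F)) (ω : A →ₗ[F] A →ₗ[F] F)
    (pu : A →ₗ[F] B →ₗ[F] (Fin m ⊕ Fin m → F)) (w : A) (g : GL (Fin m ⊕ Fin m) F)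
    (Φ : A →ₗ[F] Module.End F B) : Prop where
  mem : g ∈ M
  fix : ∀ u, op g (pu w u) = pu w u
  upper : ∀ x, ω x w = 0 → ∀ u, op g (pu x u) = pu x u + pu w (Φ x u)

namespace ST

variable (P : ST M ω s pu C D)
include P

theorem beta_layer (w : A) (y : V) (u : B) : β (pu w u) y = - s (D w y) u := by
  rw [beta_swap y, ← P.Dspec]

theorem D_fix {g : GL (Fin m ⊕ Fin m) F} (hg : g ∈ M) {w : A} (hfix : ∀ u, op g (pu w u) = pu w u) (v : V) :
    D w (op g v) = D w v := P.sext fun u => by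
  rw [P.Dspec, P.Dspec]
  conv_lhs => rw [← hfix u]
  rw [P.mem_beta hg]

theorem fix_inv {g : GL (Fin m ⊕ Fin m) F} {w : A} (hfix : ∀ u, op g (pu w u) = pu w u) (u : B) :
    op g⁻¹ (pu w u) = pu w u := by
  conv_lhs => rw [← hfix u]
  rw [← Module.End.mul_apply, op_inv_mul, Module.End.one_apply]

theorem split_ext {w x₁ : A} (hx : ω x₁ w = 1) {W : Type*} [AddCommGroup W] [Module F W] {f f' : V →ₗ[F] W}
    (h : ∀ x, ω x w = 0 → ∀ u, f (pu x u) = f' (pu x u)) (h1 : ∀ u, f (pu x₁ u) = f' (pu x₁ u)) : f = f' := by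
  refine P.T.ext_pu fun x u => ?_
  have e : pu x u = pu (x - ω x w • x₁) u + ω x w • pu x₁ u := by
    rw [map_sub, LinearMap.sub_apply, map_smul, LinearMap.smul_apply, sub_add_cancel]
  rw [e, map_add, map_add, map_smul, map_smul, h1, h _ (by simp [hx])]

theorem eq_layer_of_D {w x₁ : A} (hx : ω x₁ w = 1) {z : V} (hz : D w z = 0)
    (h : ∀ q, ω q w = 0 → D q z = 0) : z = pu w (- D x₁ z) := by
  rw [← sub_eq_zero]
  refine P.T.span _ fun x u => ?_
  have e : x = (x - ω x w • x₁) + ω x w • x₁ := (sub_add_cancel _ _).symm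
  rw [← P.Dspec, e, map_add, map_smul, LinearMap.add_apply, LinearMap.smul_apply]
  have h1 : D (x - ω x w • x₁) (z - pu w (- D x₁ z)) = 0 := by
    have hq : ω (x - ω x w • x₁) w = 0 := by simp [hx]
    rw [map_sub, h _ hq, P.D_pu, P.T.ωswap (x - ω x w • x₁) w, hq]; simp
  have h2 : D x₁ (z - pu w (- D x₁ z)) = 0 := by
    rw [map_sub, P.D_pu, P.T.ωswap x₁ w, hx]; simp
  rw [h1, h2]; simp

theorem kill_lay (w : A) (S : Module.End F B) {v : V} (hv : D w v = 0) : lay pu D w S v = 0 := by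
  rw [lay_apply, hv, map_zero, map_zero]

theorem rad_apply {w x₁ : A} (hx : ω x₁ w = 1) {g : GL (Fin m ⊕ Fin m) F} {Φ : A →ₗ[F] Module.End F B}
    (h : Rad M ω pu w g Φ) {z : V} (hz : D w z = 0) : op g z = z + pu w (- D x₁ (op g z - z)) := by
  have key : (op g - 1 + (pu w).comp ((D x₁).comp (op g - 1))).comp
      (LinearMap.id - (pu x₁).comp (D w)) = 0 := by
    refine P.split_ext hx (fun x hxw u => ?_) fun u => ?_
    · simp [P.D_pu, hxw, h.upper x hxw u, P.T.ωswap x₁ w, hx]
    · simp [P.D_pu, hx]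
  have := congrArg (fun f => f z) key
  simp only [LinearMap.comp_apply, LinearMap.sub_apply, LinearMap.id_apply, hz, map_zero, sub_zero,
    LinearMap.add_apply, Module.End.one_apply, LinearMap.zero_apply] at this
  rw [map_neg, ← eq_neg_of_add_eq_zero_left this]
  abel

theorem D_move {g : GL (Fin m ⊕ Fin m) F} (hg : g ∈ M) {w : A} (hfix : ∀ u, op g (pu w u) = pu w u) (y : V) :
    D w (op g y - y) = 0 := by rw [map_sub, P.D_fix hg hfix, sub_self]

theorem rad_top {w x₁ : A} (hx : ω x₁ w = 1) {g : GL (Fin m ⊕ Fin m) F} {Φ : A →ₗ[F] Module.End F B}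
    (h : Rad M ω pu w g Φ) {x : A} (hxw : ω x w = 0) (u u' : B) :
    s (D x (op g (pu x₁ u))) u' = ω x₁ x * s u u' - s u (Φ x u') := by
  have e : pu x u' = op g (pu x u') - op g (pu w (Φ x u')) := by
    rw [h.upper x hxw, h.fix]; abel
  rw [P.Dspec, e, map_sub, P.mem_beta h.mem, P.mem_beta h.mem, P.T.form, P.T.form, hx, one_mul]

theorem comm_elem {w x₁ : A} (hx : ω x₁ w = 1) {g h : GL (Fin m ⊕ Fin m) F}
    {Φ Ψ : A →ₗ[F] Module.End F B} (hg : Rad M ω pu w g Φ) (hh : Rad M ω pu w h Ψ) {S : Module.End F B}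
    (hS : ∀ u, op g (op h (pu x₁ u)) - op h (op g (pu x₁ u)) = pu w (S u)) :
    ∃ e ∈ M, op e = 1 + lay pu D w S := by
  refine ⟨g * h * (h * g)⁻¹, M.mul_mem (M.mul_mem hg.mem hh.mem) (M.inv_mem (M.mul_mem hh.mem hg.mem)), ?_⟩
  have key : op g * op h - op h * op g = lay pu D w S := by
    refine P.split_ext hx (fun x hxw u => ?_) fun u => ?_
    · simp only [LinearMap.sub_apply, Module.End.mul_apply, hh.upper x hxw, hg.upper x hxw, map_add, hg.fix,
        hh.fix, lay_apply, P.D_pu, hxw, zero_smul, map_zero]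
      abel
    · simp only [LinearMap.sub_apply, Module.End.mul_apply, hS, lay_apply, P.D_pu, hx, one_smul]
  have hDinv : ∀ v, D w (op (h * g)⁻¹ v) = D w v := fun v =>
    P.D_fix (M.inv_mem (M.mul_mem hh.mem hg.mem))
      (fun u => P.fix_inv (fun u => by rw [op_mul, Module.End.mul_apply, hg.fix, hh.fix]) u) v
  have e1 : lay pu D w S * op (h * g)⁻¹ = lay pu D w S :=
    LinearMap.ext fun v => by rw [Module.End.mul_apply, lay_apply, lay_apply, hDinv]
  rw [← e1, ← key, sub_mul, ← op_mul h g, op_mul_inv, op_mul, op_mul, add_sub_cancel]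

theorem rad_mul {w : A} {g h : GL (Fin m ⊕ Fin m) F} {Φ Ψ : A →ₗ[F] Module.End F B}
    (hg : Rad M ω pu w g Φ) (hh : Rad M ω pu w h Ψ) : Rad M ω pu w (g * h) (Φ + Ψ) :=
  ⟨M.mul_mem hg.mem hh.mem, fun u => by rw [op_mul, Module.End.mul_apply, hh.fix, hg.fix], fun x hxw u => by
    rw [op_mul, Module.End.mul_apply, hh.upper x hxw, map_add, hg.fix, hg.upper x hxw, LinearMap.add_apply,
      LinearMap.add_apply, map_add]
    abel⟩

theorem rad_inv {w : A} {g : GL (Fin m ⊕ Fin m) F} {Φ : A →ₗ[F] Module.End F B}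
    (hg : Rad M ω pu w g Φ) : Rad M ω pu w g⁻¹ (-Φ) :=
  ⟨M.inv_mem hg.mem, P.fix_inv hg.fix, fun x hxw u => by
    have h1 := congrArg (op g⁻¹) (hg.upper x hxw u)
    rw [← Module.End.mul_apply, op_inv_mul, Module.End.one_apply, map_add, P.fix_inv hg.fix] at h1
    rw [LinearMap.neg_apply, LinearMap.neg_apply, map_neg, ← sub_eq_add_neg]
    exact eq_sub_of_add_eq h1.symm⟩

theorem rad_conj {w : A} {g : GL (Fin m ⊕ Fin m) F} {Φ : A →ₗ[F] Module.End F B}
    (hg : Rad M ω pu w g Φ) (G G' : Module.End F A) (k k' : Module.End F B)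
    (hG : ∀ x y, ω (G x) (G y) = ω x y) (hG' : G * G' = 1) (hGw : G w = w)
    (hk : ∀ u v, s (k u) (k v) = s u v) (hk' : k * k' = 1) (Ψ : A →ₗ[F] Module.End F B)
    (hΨ : ∀ x, Ψ x = k * Φ (G' x) * k') : ∃ g', Rad M ω pu w g' Ψ := by
  obtain ⟨h, hh, he⟩ := P.exists_elem G k hG hk
  have gg : ∀ x, G (G' x) = x := fun x => congrArg (fun f => f x) hG'
  have kk : ∀ u, k (k' u) = u := fun u => congrArg (fun f => f u) hk'
  have hinv : ∀ x u, op h⁻¹ (pu x u) = pu (G' x) (k' u) := fun x u => by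
    conv_lhs => rw [← gg x, ← kk u, ← he]
    rw [← Module.End.mul_apply, op_inv_mul, Module.End.one_apply]
  have hw : G' w = w := by
    have hi : Function.Injective G := (injective_iff_map_eq_zero G).mpr fun x hx => P.T.ωnd x fun y => by
      rw [← hG, hx, map_zero, LinearMap.zero_apply]
    exact hi (by rw [gg, hGw])
  refine ⟨h * g * h⁻¹, M.mul_mem (M.mul_mem hh hg.mem) (M.inv_mem hh), fun u => ?_, fun x hxw u => ?_⟩
  · simp only [op_mul, Module.End.mul_apply, hinv, hw, hg.fix, he, hGw, kk]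
  · have hx' : ω (G' x) w = 0 := by rw [← hG, gg, hGw, hxw]
    simp only [op_mul, Module.End.mul_apply, hinv, hg.upper _ hx', map_add, he, hGw, kk, gg, hΨ]

/-- The tensor products in the radical. -/
theorem exists_rad {w q : A} (hq : ω q w = 0) : ∃ h, ∃ Ψ : A →ₗ[F] Module.End F B, Rad M ω pu w h Ψ ∧
    (∀ x, Ψ x = ω x q • (1 : Module.End F B)) ∧
    (∀ x u, op h (pu x u) = pu (x + ω x q • w + ω x w • q) u) ∧
    ∀ z, D w z = 0 → op h z = z + pu w (D q z) := by
  have hwq : ω w q = 0 := by rw [P.T.ωswap q w, hq, neg_zero]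
  let G : Module.End F A := LinearMap.id + (ω.flip q).smulRight w + (ω.flip w).smulRight q
  have hGx : ∀ x, G x = x + ω x q • w + ω x w • q := fun x => by simp [G]
  have hG : ∀ x y, ω (G x) (G y) = ω x y := fun x y => by
    simp only [hGx, map_add, map_smul, LinearMap.add_apply, LinearMap.smul_apply, smul_eq_mul, P.T.alt, hq, hwq,
      P.T.ωswap y q, P.T.ωswap y w]
    ring
  obtain ⟨h, hh, he⟩ := P.exists_elem G LinearMap.id hG (fun _ _ => rfl)
  have he' : ∀ x u, op h (pu x u) = pu (x + ω x q • w + ω x w • q) u := fun x u => by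
    rw [he, hGx, LinearMap.id_apply]
  refine ⟨h, (ω.flip q).smulRight (1 : Module.End F B), ⟨hh, fun u => ?_, fun x hxw u => ?_⟩, fun x => rfl, he',
    fun z hz => ?_⟩
  · rw [he', hwq, P.T.alt]; simp
  · rw [he', hxw]; simp
  · have key : op h = 1 + (pu w).comp (D q) + (pu q).comp (D w) := P.T.ext_pu fun x u => by
      simp [he', P.D_pu]
    rw [key]; simp [hz]

/-- The coefficients are scalars up to skew endomorphisms. -/
theorem rad_skew (hgood : Good M pu D) {w x₁ : A} (hx : ω x₁ w = 1) {g : GL (Fin m ⊕ Fin m) F}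
    {Φ : A →ₗ[F] Module.End F B} (hg : Rad M ω pu w g Φ) {q : A} (hq : ω q w = 0) :
    ∃ c : F, ∀ u u', s (Φ q u) u' + s u (Φ q u') = c * s u u' := by
  obtain ⟨h, Ψ, hh, hΨ, he, hz⟩ := P.exists_rad hq
  let d : B →ₗ[F] V := (op g - 1).comp (pu x₁)
  let S : Module.End F B := Φ q - (D q).comp d
  obtain ⟨e, hem, hee⟩ := P.comm_elem hx hg hh (S := S) fun u => by
    have hd : D w (op g (pu x₁ u) - pu x₁ u) = 0 := P.D_move hg.mem hg.fix _
    have e1 : op h (op g (pu x₁ u)) =
        op h (pu x₁ u) + (op g (pu x₁ u) - pu x₁ u) + pu w (D q (op g (pu x₁ u) - pu x₁ u)) := by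
      conv_lhs => rw [show op g (pu x₁ u) = pu x₁ u + (op g (pu x₁ u) - pu x₁ u) by abel]
      rw [map_add, hz _ hd, ← add_assoc]
    simp only [S, d, e1, he, hx, one_smul, map_add, map_smul, LinearMap.add_apply, LinearMap.smul_apply, hg.fix,
      hg.upper q hq, LinearMap.sub_apply, LinearMap.comp_apply, Module.End.one_apply, map_sub]
    abel
  have hw : w ≠ 0 := fun h => by simp [h] at hx
  obtain ⟨c, hc⟩ := hgood w S e hw hem hee
  refine ⟨c, fun u u' => ?_⟩
  have h1 := congrArg (fun f => s (f u) u') hc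
  simp only [S, d, LinearMap.sub_apply, LinearMap.comp_apply, Module.End.one_apply, LinearMap.smul_apply, map_sub,
    map_smul, smul_eq_mul, P.rad_top hx hg hq, P.D_pu, hx] at h1
  linear_combination h1

/-- Two radical elements with coefficients supported by one direction. -/
theorem rad_square (hgood : Good M pu D) {w x₁ : A} (hx : ω x₁ w = 1) {p p' : A} (hp : ω p w = 0)
    (hp' : ω p' w = 0) (hpp : ω p p' ≠ 0) {g h : GL (Fin m ⊕ Fin m) F} {Φ Ψ : A →ₗ[F] Module.End F B}
    (hg : Rad M ω pu w g Φ) (hh : Rad M ω pu w h Ψ) {E : Module.End F B}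
    (hE : ∀ u u', s (E u) u' = - s u (E u'))
    (hΦ : ∀ x, ω x w = 0 → Φ x = ω x p • E) (hΨ : ∀ x, ω x w = 0 → Ψ x = ω x p' • E) :
    ∃ c : F, E * E = c • 1 := by
  -- the images of the top vectors
  have top : ∀ {f : GL (Fin m ⊕ Fin m) F} {Θ : A →ₗ[F] Module.End F B} {r : A}, Rad M ω pu w f Θ →
      ω r w = 0 → (∀ x, ω x w = 0 → Θ x = ω x r • E) → ∀ u, ∃ u₀,
      op f (pu x₁ u) = pu x₁ u - pu r (E u) + pu w u₀ := by
    intro f Θ r hf hr hΘ u
    have hn : D w (op f (pu x₁ u) - pu x₁ u + pu r (E u)) = 0 := by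
      rw [map_add, P.D_move hf.mem hf.fix, P.D_pu, hr, zero_smul, add_zero]
    have hz := P.eq_layer_of_D hx hn fun q hq => P.sext fun u' => by
      rw [map_add, map_sub, P.D_pu, P.D_pu, map_add, map_sub, LinearMap.add_apply, LinearMap.sub_apply,
        P.rad_top hx hf hq, hΘ q hq]
      simp only [map_smul, LinearMap.smul_apply, map_zero, LinearMap.zero_apply, smul_eq_mul, hE, P.T.ωswap q r]
      ring
    refine ⟨- D x₁ (op f (pu x₁ u) - pu x₁ u + pu r (E u)), ?_⟩
    rw [← hz]; abel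
  let S : Module.End F B := (2 * ω p p') • (E * E)
  obtain ⟨e, hem, hee⟩ := P.comm_elem hx hg hh (S := S) fun u => by
    obtain ⟨a, ha⟩ := top hh hp' hΨ u
    obtain ⟨b, hb⟩ := top hg hp hΦ u
    rw [ha, hb]
    simp only [map_add, map_sub, hb, ha, hg.fix, hh.fix, hg.upper p' hp', hh.upper p hp, hΦ p' hp', hΨ p hp, S,
      LinearMap.smul_apply, map_smul, Module.End.mul_apply, P.T.ωswap p p', neg_smul, LinearMap.neg_apply,
      map_neg]
    module
  have hw : w ≠ 0 := fun h => by simp [h] at hx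
  obtain ⟨c, hc⟩ := hgood w S e hw hem hee
  refine ⟨c / (2 * ω p p'), ?_⟩
  have h2 := mul_ne_zero P.T.two hpp
  calc E * E = (2 * ω p p')⁻¹ • S := by simp only [S]; rw [smul_smul, inv_mul_cancel₀ h2, one_smul]
    _ = _ := by rw [hc, smul_smul, div_eq_inv_mul]

/-- The coefficients are scalars. -/
theorem rad_scalar (hgood : Good M pu D) (hb : 3 ≤ finrank F B) {w x₁ : A} (hx : ω x₁ w = 1)
    {g : GL (Fin m ⊕ Fin m) F} {Φ : A →ₗ[F] Module.End F B} (hg : Rad M ω pu w g Φ) {q : A} (hq : ω q w = 0) :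
    ∃ c : F, Φ q = c • 1 := by
  classical
  have h2 := P.T.two
  obtain ⟨c, hc⟩ := P.rad_skew hgood hx hg hq
  set J : Module.End F B := Φ q - (c / 2) • 1 with hJ
  have hJs : ∀ u u', s (J u) u' = - s u (J u') := fun u u' => by
    simp only [hJ, LinearMap.sub_apply, LinearMap.smul_apply, Module.End.one_apply, map_sub, map_smul, smul_eq_mul]
    field_simp
    linear_combination 2 * hc u u'
  by_cases hqw : q ∈ Submodule.span F {w}
  · obtain ⟨a, rfl⟩ := Submodule.mem_span_singleton.mp hqw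
    refine ⟨0, LinearMap.ext fun u => ?_⟩
    have h0 := hg.upper w (P.T.alt w) u
    rw [hg.fix, left_eq_add] at h0
    have hw : w ≠ 0 := fun h => by simp [h] at hx
    have := P.pu_inj hw (h0.trans (map_zero _).symm)
    simp [this]
  obtain ⟨q', hq'1, hq'2⟩ := P.T.exists_sep hqw
  have hq'w : ω q' w = 0 := by rw [P.T.ωswap w q', hq'1, neg_zero]
  refine ⟨c / 2, sub_eq_zero.mp ?_⟩
  change J = 0
  -- vanishing on the non-singular vectors
  have key : ∀ x, s x x ≠ 0 → J x = 0 := by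
    intro x hxx
    by_contra hy0
    set y := J x with hy
    have hyx : s y x = 0 := by
      have := hJs x x
      rw [P.T.sym x (J x)] at this
      exact (mul_eq_zero.mp (show (2 : F) * s y x = 0 by rw [hy]; linear_combination this)).resolve_left h2
    have hxy : s x y = 0 := by rw [P.T.sym]; exact hyx
    set r : Module.End F B := refl s x with hr
    have rr : r * r = 1 := LinearMap.ext fun v => by
      simp only [hr, Module.End.mul_apply, refl_apply, map_sub, map_smul, LinearMap.sub_apply, LinearMap.smul_apply,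
        smul_eq_mul, Module.End.one_apply]
      match_scalars <;> field_simp <;> ring
    set E : Module.End F B := Φ q - r * Φ q * r with hEdef
    have hE : E = J - r * J * r := by
      rw [hEdef, hJ, mul_sub, sub_mul, mul_smul_comm, smul_mul_assoc, mul_one, rr]
      abel
    have hEu : ∀ u, E u = (2 / s x x) • (s u x • y - s u y • x) := fun u => by
      rw [hE]
      simp only [LinearMap.sub_apply, Module.End.mul_apply, hr, refl_apply, map_sub, map_smul, LinearMap.sub_apply,
        LinearMap.smul_apply, smul_eq_mul, ← hy, hyx, hJs u x]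
      match_scalars <;> field_simp <;> ring
    have hEs : ∀ u u', s (E u) u' = - s u (E u') := fun u u' => by
      simp only [hEu, map_smul, map_sub, LinearMap.smul_apply, LinearMap.sub_apply, smul_eq_mul, P.T.sym x u',
        P.T.sym y u']
      ring
    -- an element with one direction
    have hqq : ω q q = 0 := P.T.alt q
    obtain ⟨g₁, hg₁⟩ := P.rad_conj hg (tv ω q 1) (tv ω q (-1)) 1 1 (P.T.tv_isom q 1)
      (LinearMap.ext fun z => by simp [tv_apply, hqq]) (by simp [tv_apply, P.T.ωswap q w, hq])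
      (fun _ _ => rfl) (one_mul 1) (Φ.comp (tv ω q (-1))) (fun z => by simp)
    have hg₂ := P.rad_mul hg (P.rad_inv hg₁)
    have h₂ : ∀ z, (Φ + -(Φ.comp (tv ω q (-1)))) z = ω z q • Φ q := fun z => by
      simp [tv_apply]
    obtain ⟨g₃, hg₃⟩ := P.rad_conj hg₂ 1 1 r r (fun _ _ => rfl) (one_mul 1) rfl (P.T.refl_isom hxx) rr
      ((ω.flip q).smulRight (r * Φ q * r)) (fun z => by
        rw [h₂, mul_smul_comm, smul_mul_assoc]; rfl)
    have hg₄ := P.rad_mul hg₂ (P.rad_inv hg₃)
    set Φ₄ : A →ₗ[F] Module.End F B := (Φ + -(Φ.comp (tv ω q (-1)))) + -((ω.flip q).smulRight (r * Φ q * r))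
    have h₄ : ∀ z, Φ₄ z = ω z q • E := fun z => by
      show (Φ + -(Φ.comp (tv ω q (-1)))) z + -(ω z q • (r * Φ q * r)) = _
      rw [h₂, hEdef, smul_sub, sub_eq_add_neg]
    obtain ⟨g₅, hg₅⟩ := P.rad_conj hg₄ (tv ω q' 1) (tv ω q' (-1)) 1 1 (P.T.tv_isom q' 1)
      (LinearMap.ext fun z => by simp [tv_apply, P.T.alt q']) (by simp [tv_apply, hq'1])
      (fun _ _ => rfl) (one_mul 1) (Φ₄.comp (tv ω q' (-1))) (fun z => by simp)
    obtain ⟨d, hd⟩ := P.rad_square hgood hx (p := q) (p' := q + ω q q' • q') hq (by simp [hq, hq'w])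
      (by simp only [map_add, map_smul, hqq, smul_eq_mul, zero_add]; exact mul_ne_zero hq'2 hq'2)
      hg₄ hg₅ hEs (fun z _ => h₄ z) (fun z _ => by
        show Φ₄ (tv ω q' (-1) z) = _
        rw [h₄, tv_apply]
        congr 1
        simp only [map_add, map_smul, LinearMap.add_apply, LinearMap.smul_apply, smul_eq_mul, P.T.ωswap q q']
        ring)
    -- the square vanishes
    obtain ⟨u, hu, hu0⟩ : ∃ u ∈ LinearMap.ker ((s.flip x).prod (s.flip y)), u ≠ 0 :=
      Submodule.exists_mem_ne_zero_of_ne_bot (LinearMap.ker_ne_bot_of_finrank_lt (by simp; omega))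
    have hu1 : s u x = 0 := congrArg Prod.fst hu
    have hu2 : s u y = 0 := congrArg Prod.snd hu
    have hd0 : d = 0 := by
      have := congrArg (fun f => f u) hd
      simp only [Module.End.mul_apply, hEu u, hu1, hu2, zero_smul, sub_zero, smul_zero, map_zero,
        LinearMap.smul_apply, Module.End.one_apply] at this
      exact (smul_eq_zero.mp this.symm).resolve_right hu0
    have hk : (2 / s x x : F) ≠ 0 := div_ne_zero h2 hxx
    have hEx : E x = (2 : F) • y := by
      rw [hEu, hxy, zero_smul, sub_zero, smul_smul, div_mul_cancel₀ _ hxx]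
    have hyy : s y y = 0 := by
      have := congrArg (fun f => s (f x) x) hd
      simp only [Module.End.mul_apply, hEx, map_smul, hEu y, hd0, zero_smul, LinearMap.zero_apply, hyx, zero_sub,
        map_neg, map_zero, LinearMap.smul_apply, smul_eq_mul, LinearMap.neg_apply, smul_neg] at this
      have h' : (2 : F) * 2 * s y y = 0 := by field_simp at this ⊢; linear_combination -this
      exact (mul_eq_zero.mp h').resolve_left (mul_ne_zero h2 h2)
    obtain ⟨z, hz⟩ : ∃ z, s z y ≠ 0 := by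
      by_contra hcon
      push Not at hcon
      exact hy0 (P.T.snd _ fun v => by rw [P.T.sym]; exact hcon v)
    have hEy : E y = 0 := by rw [hEu, hyx, hyy]; simp
    have := congrArg (fun f => f z) hd
    simp only [Module.End.mul_apply, hEu z, map_smul, map_sub, hEy, hEx, hd0, zero_smul, smul_zero, zero_sub,
      LinearMap.zero_apply, smul_neg, neg_eq_zero, smul_eq_zero, hz, hk, h2, hy0, or_self] at this
  have hns : ∃ u ∈ (⊤ : Submodule F B), s u u ≠ 0 := by
    obtain ⟨u, -, hu⟩ := exists_perp s P.T.sym h2 P.T.snd (![] : Fin 0 → B) (fun i => i.elim0)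
      (fun i => i.elim0) (by omega)
    exact ⟨u, Submodule.mem_top, hu⟩
  by_contra hne
  obtain ⟨u, -, huK, hu⟩ := exists_nonsingular_notMem s P.T.sym h2 ⊤ (LinearMap.ker J) hns
    (fun h => hne (LinearMap.ker_eq_top.mp (top_le_iff.mp h)))
  exact huK (key u hu)

/-- The radical elements of the group act on the first factor only. -/
theorem rad_pure (hgood : Good M pu D) (hb : 3 ≤ finrank F B) {w x₁ : A} (hx : ω x₁ w = 1)
    {g : GL (Fin m ⊕ Fin m) F} {Φ : A →ₗ[F] Module.End F B} (hg : Rad M ω pu w g Φ) :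
    ∃ q, ω q w = 0 ∧ (∀ z, D w z = 0 → op g z = z + pu w (D q z)) ∧
      ∃ G : Module.End F A, ∀ x u, op g (pu x u) = pu (G x) u := by
  classical
  have hw : w ≠ 0 := fun h => by simp [h] at hx
  obtain ⟨u₀, -, hu₀⟩ := exists_perp s P.T.sym P.T.two P.T.snd (![] : Fin 0 → B) (fun i => i.elim0)
    (fun i => i.elim0) (by omega)
  have hu₀0 : u₀ ≠ 0 := fun h => hu₀ (by rw [h]; simp)
  let κ : A →ₗ[F] F := (1 / s u₀ u₀) • ((s.flip u₀).comp (Φ.flip u₀))
  have hκ : ∀ x, ω x w = 0 → Φ x = κ x • 1 := fun x hxw => by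
    obtain ⟨c, hc⟩ := P.rad_scalar hgood hb hx hg hxw
    rw [hc]
    congr 1
    simp [κ, hc]
    field_simp
  let κ' : A →ₗ[F] F := κ - κ x₁ • ω.flip w
  have hωN : LinearMap.BilinForm.Nondegenerate ω := ⟨P.T.ωnd, fun y hy => P.T.ωnd y fun x => by
    rw [P.T.ωswap x y, hy x, neg_zero]⟩
  set q := -((LinearMap.BilinForm.toDual ω hωN).symm κ') with hqdef
  have hωq : ∀ x, ω x q = κ' x := fun x => by
    rw [hqdef, map_neg, P.T.ωswap _ x, neg_neg, LinearMap.BilinForm.apply_toDual_symm_apply]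
  have hκw : κ w = 0 := by
    have h0 := hg.upper w (P.T.alt w) u₀
    rw [hg.fix, left_eq_add, hκ w (P.T.alt w)] at h0
    have := P.pu_inj hw (h0.trans (map_zero _).symm)
    exact (smul_eq_zero.mp this).resolve_right hu₀0
  have hqw : ω q w = 0 := by
    rw [P.T.ωswap w q, hωq]
    simp [κ', hκw, P.T.alt w]
  obtain ⟨h, Ψ, hh, hΨ, he, hz⟩ := P.exists_rad hqw
  have hg' := P.rad_mul (P.rad_inv hh) hg
  have hid : ∀ x, ω x w = 0 → ∀ u, op (h⁻¹ * g) (pu x u) = pu x u := fun x hxw u => by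
    rw [hg'.upper x hxw, LinearMap.add_apply, LinearMap.neg_apply, hΨ, hωq, hκ x hxw]
    simp [κ', hxw]
  let S : Module.End F B := - (D x₁).comp ((op (h⁻¹ * g) - 1).comp (pu x₁))
  have hform : op (h⁻¹ * g) = 1 + lay pu D w S := by
    refine P.split_ext hx (fun x hxw u => ?_) fun u => ?_
    · simp [hid x hxw, lay_apply, P.D_pu, hxw]
    · have hn : D w (op (h⁻¹ * g) (pu x₁ u) - pu x₁ u) = 0 := P.D_move hg'.mem hg'.fix _
      have := P.eq_layer_of_D hx hn fun r hr => P.sext fun u' => by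
        rw [map_zero, LinearMap.zero_apply, P.Dspec, map_sub, LinearMap.sub_apply]
        conv_lhs => arg 1; rw [← hid r hr u']
        rw [P.mem_beta hg'.mem, sub_self]
      rw [LinearMap.add_apply, Module.End.one_apply, lay_apply, P.D_pu, hx, one_smul]
      simp only [S, LinearMap.neg_apply, LinearMap.comp_apply, LinearMap.sub_apply, Module.End.one_apply]
      rw [← this]; abel
  obtain ⟨c, hc⟩ := hgood w S _ hw hg'.mem hform
  have hog : op g = op h * (1 + lay pu D w S) := by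
    rw [← hform, ← op_mul, mul_inv_cancel_left]
  refine ⟨q, hqw, fun z hz' => ?_, ?_⟩
  · rw [hog, Module.End.mul_apply, LinearMap.add_apply, Module.End.one_apply, P.kill_lay w S hz', add_zero,
      hz z hz']
  · refine ⟨(LinearMap.id + (ω.flip q).smulRight w + (ω.flip w).smulRight q).comp
      (LinearMap.id + c • (ω.flip w).smulRight w), fun x u => ?_⟩
    have e : (1 + lay pu D w S : Module.End F V) (pu x u) = pu (x + (c * ω x w) • w) u := by
      rw [hc]; simp [lay_apply, P.D_pu, smul_smul, mul_comm]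
    rw [hog, Module.End.mul_apply, e, he]
    simp [smul_smul]

end ST

end Cfsg.Agent.H1.SpT
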