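import Cfsg.Agent.H25.GeoLists.SpTensor.Closure

/-!
The tensor product of an alternating form and a symmetric form: the contractions with the alternating
factor, root elements of the layers, and reflection-invariant subspaces of the symmetric factor.
-/

set_option autoImplicit false
set_option linter.unusedSectionVars false

namespace Cfsg.Agent.H1.SpT

open scoped Matrix
open Cfsg.Agent.H98 Cfsg.Agent.H25.GeoLists Module

attribute [-simp] Cfsg.Agent.H2.sympBilin_apply

section Orth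

variable {F B : Type*} [Field F] [AddCommGroup B] [Module F B] [FiniteDimensional F B]

/-- A non-zero subspace invariant under the reflections is everything. -/
theorem refl_invariant_eq_top (s : B →ₗ[F] B →ₗ[F] F) (hs : ∀ u v, s u v = s v u) (h2 : (2 : F) ≠ 0)
    (hnd : ∀ u, (∀ v, s u v = 0) → u = 0)
    (hq : (∃ t : F, t ≠ 0 ∧ t * t ≠ 1) ∨ 3 ≤ finrank F B) (U : Submodule F B)
    (hU : ∀ z, s z z ≠ 0 → ∀ u ∈ U, Cfsg.Agent.H25.GeoLists.refl s z u ∈ U) (hne : U ≠ ⊥) : U = ⊤ := by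
  classical
  have dich : ∀ z, s z z ≠ 0 → z ∈ U ∨ ∀ u ∈ U, s u z = 0 := by
    intro z hz
    by_contra hc
    push Not at hc
    obtain ⟨hzU, u, hu, huz⟩ := hc
    have h1 := U.sub_mem hu (hU z hz u hu)
    rw [Cfsg.Agent.H25.GeoLists.refl_apply, sub_sub_cancel] at h1
    exact hzU ((U.smul_mem_iff (mul_ne_zero (div_ne_zero h2 hz) huz)).mp h1)
  obtain ⟨u₀, hu₀, hu₀0⟩ := Submodule.exists_mem_ne_zero_of_ne_bot hne
  by_contra htop
  have hns : ∃ u ∈ (⊤ : Submodule F B), s u u ≠ 0 := by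
    by_contra hc
    push Not at hc
    exact hu₀0 (hnd _ fun v =>
      apply_eq_zero_of_singular s hs h2 (K := ⊤) hc Submodule.mem_top Submodule.mem_top)
  obtain ⟨x, -, hxU, hx⟩ := exists_nonsingular_notMem s hs h2 ⊤ U hns
    (fun h => htop (top_le_iff.mp h))
  have hxp := (dich x hx).resolve_left hxU
  obtain ⟨y, -, hyP, hy⟩ := exists_nonsingular_notMem s hs h2 ⊤ (LinearMap.ker (s u₀)) hns
    (fun h => hu₀0 (hnd _ fun v => h Submodule.mem_top))
  have hyU : y ∈ U := (dich y hy).resolve_right fun h => hyP (h u₀ hu₀)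
  have pair : ∀ x' y' : B, s x' x' ≠ 0 → (∀ u ∈ U, s u x' = 0) → y' ∈ U → s y' y' ≠ 0 →
      s x' x' + s y' y' = 0 := by
    intro x' y' hx' hx'p hy' hy'0
    have hxy : s x' y' = 0 := by rw [hs]; exact hx'p y' hy'
    by_contra hne'
    have hz : s (x' + y') (x' + y') ≠ 0 := by
      simpa [map_add, hxy, hx'p y' hy'] using hne'
    rcases dich _ hz with h | h
    · exact hx' (hx'p x' (by simpa using U.sub_mem h hy'))
    · have h' := h y' hy'
      rw [map_add, hx'p y' hy', zero_add] at h'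
      exact hy'0 h'
  have hxy : s x y = 0 := by rw [hs]; exact hxp y hyU
  rcases hq with ⟨t, ht0, ht1⟩ | hdim
  · have e1 := pair x y hx hxp hyU hy
    have e2 := pair x (t • y) hx hxp (U.smul_mem t hyU) (by simp [ht0, hy])
    simp only [map_smul, LinearMap.smul_apply, smul_eq_mul] at e2
    have : (t * t - 1) * s y y = 0 := by linear_combination e2 - e1
    exact hy ((mul_eq_zero.mp this).resolve_left (sub_ne_zero.mpr ht1))
  · obtain ⟨z, hz, hz0⟩ := exists_perp s hs h2 hnd ![x, y]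
      (fun i => by fin_cases i <;> simpa)
      (fun i j hij => by
        have hyx : s y x = 0 := by rw [hs]; exact hxy
        fin_cases i <;> fin_cases j <;> first | exact absurd rfl hij | exact hxy | exact hyx) (by omega)
    have hzx : s z x = 0 := by simpa using hz 0
    have hzy : s z y = 0 := by simpa using hz 1
    rcases dich z hz0 with h | h
    · have e1 := pair x y hx hxp hyU hy
      have e2 := pair x z hx hxp h hz0
      have hyz : s (y + z) (y + z) = s y y + s z z := by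
        simp [map_add, hzy, hs y z]
      have hne2 : s (y + z) (y + z) ≠ 0 := fun h0 =>
        hx ((mul_eq_zero.mp (show (2 : F) * s x x = 0 by rw [hyz] at h0; linear_combination e1 + e2 - h0)).resolve_left h2)
      have e3 := pair x (y + z) hx hxp (U.add_mem hyU h) hne2
      rw [hyz] at e3
      exact hx (by linear_combination e1 + e2 - e3)
    · have e1 := pair x y hx hxp hyU hy
      have e2 := pair z y hz0 h hyU hy
      have hxz : s (x + z) (x + z) = s x x + s z z := by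
        simp [map_add, hzx, hs x z]
      have hne2 : s (x + z) (x + z) ≠ 0 := fun h0 =>
        hy ((mul_eq_zero.mp (show (2 : F) * s y y = 0 by rw [hxz] at h0; linear_combination e1 + e2 - h0)).resolve_left h2)
      have e3 := pair (x + z) y hne2 (fun u hu => by rw [map_add, hxp u hu, h u hu, add_zero]) hyU hy
      rw [hxz] at e3
      exact hy (by linear_combination e1 + e2 - e3)

end Orth

variable {m : ℕ} {F : Type*} [Field F] {A B : Type*} [AddCommGroup A] [Module F A] [AddCommGroup B] [Module F B]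

local notation "V" => (Fin m ⊕ Fin m → F)
local notation "Mat" => Matrix (Fin m ⊕ Fin m) (Fin m ⊕ Fin m) F
local notation "β" => Cfsg.Agent.H2.sympBilin m F

/-- The linear map of an invertible matrix. -/
def op (g : GL (Fin m ⊕ Fin m) F) : Module.End F (Fin m ⊕ Fin m → F) := Matrix.mulVecLin (g : Matrix (Fin m ⊕ Fin m) (Fin m ⊕ Fin m) F)

theorem op_apply (g : GL (Fin m ⊕ Fin m) F) (v : V) : op g v = (g : Mat) *ᵥ v := rfl

theorem op_mul (g h : GL (Fin m ⊕ Fin m) F) : op (g * h) = op g * op h :=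
  Matrix.mulVecLin_mul _ _

theorem op_one : op (1 : GL (Fin m ⊕ Fin m) F) = 1 := Matrix.mulVecLin_one

theorem op_inj {g h : GL (Fin m ⊕ Fin m) F} (e : op g = op h) : g = h :=
  gl_ext fun v => congrArg (fun f => f v) e

theorem op_inv_mul (g : GL (Fin m ⊕ Fin m) F) : op g⁻¹ * op g = 1 := by
  rw [← op_mul, inv_mul_cancel, op_one]

theorem op_mul_inv (g : GL (Fin m ⊕ Fin m) F) : op g * op g⁻¹ = 1 := by
  rw [← op_mul, mul_inv_cancel, op_one]

theorem op_inv_of {g : GL (Fin m ⊕ Fin m) F} {X : Module.End F (Fin m ⊕ Fin m → F)} (h : op g * X = 1) :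
    op g⁻¹ = X := by
  calc op g⁻¹ = op g⁻¹ * (op g * X) := by rw [h, mul_one]
    _ = X := by rw [← mul_assoc, op_inv_mul, one_mul]

/-- The decomposition together with the contractions by vectors of the alternating factor. -/
structure ST (M : Subgroup (GL (Fin m ⊕ Fin m) F)) (ω : A →ₗ[F] A →ₗ[F] F) (s : B →ₗ[F] B →ₗ[F] F)
    (pu : A →ₗ[F] B →ₗ[F] (Fin m ⊕ Fin m → F)) (C : B →ₗ[F] (Fin m ⊕ Fin m → F) →ₗ[F] A)
    (D : A →ₗ[F] (Fin m ⊕ Fin m → F) →ₗ[F] B) : Prop where
  T : TS M ω s pu C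
  Dspec : ∀ x v u, s (D x v) u = Cfsg.Agent.H2.sympBilin m F v (pu x u)

variable {M : Subgroup (GL (Fin m ⊕ Fin m) F)} {ω : A →ₗ[F] A →ₗ[F] F} {s : B →ₗ[F] B →ₗ[F] F}
  {pu : A →ₗ[F] B →ₗ[F] (Fin m ⊕ Fin m → F)} {C : B →ₗ[F] (Fin m ⊕ Fin m → F) →ₗ[F] A}
  {D : A →ₗ[F] (Fin m ⊕ Fin m → F) →ₗ[F] B}

/-- The endomorphism `v ↦ pu w (S (D w v))`. -/
def lay (pu : A →ₗ[F] B →ₗ[F] (Fin m ⊕ Fin m → F)) (D : A →ₗ[F] (Fin m ⊕ Fin m → F) →ₗ[F] B) (w : A)
    (S : Module.End F B) : Module.End F (Fin m ⊕ Fin m → F) := (pu w).comp (S.comp (D w))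

theorem lay_apply (w : A) (S : Module.End F B) (v : V) : lay pu D w S v = pu w (S (D w v)) := rfl

/-- A pair defining a quadratic element of the group of isometries. -/
def Root (s : B →ₗ[F] B →ₗ[F] F) (K : B →ₗ[F] (Fin m ⊕ Fin m → F)) (L : (Fin m ⊕ Fin m → F) →ₗ[F] B) : Prop :=
  (∀ y u, s (L y) u = Cfsg.Agent.H2.sympBilin m F y (K u)) ∧ ∀ u, L (K u) = 0

/-- Only scalars occur as coefficients of the layers. -/
def Good (M : Subgroup (GL (Fin m ⊕ Fin m) F)) (pu : A →ₗ[F] B →ₗ[F] (Fin m ⊕ Fin m → F))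
    (D : A →ₗ[F] (Fin m ⊕ Fin m → F) →ₗ[F] B) : Prop :=
  ∀ (w : A) (S : Module.End F B) (g : GL (Fin m ⊕ Fin m) F), w ≠ 0 → g ∈ M → op g = 1 + lay pu D w S →
    ∃ c : F, S = c • (1 : Module.End F B)

/-- An element is a tensor product. -/
def Pu (pu : A →ₗ[F] B →ₗ[F] (Fin m ⊕ Fin m → F)) (g : GL (Fin m ⊕ Fin m) F) : Prop :=
  ∃ (G : Module.End F A) (k : Module.End F B), ∀ x u, op g (pu x u) = pu (G x) (k u)

namespace ST

theorem sext (P : ST M ω s pu C D) {u u' : B} (h : ∀ v, s u v = s u' v) : u = u' := by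
  rw [← sub_eq_zero]
  exact P.T.snd _ fun v => by rw [map_sub, LinearMap.sub_apply, h, sub_self]

theorem D_pu (P : ST M ω s pu C D) (x y : A) (u : B) : D x (pu y u) = ω y x • u :=
  P.sext fun v => by rw [P.Dspec, P.T.form, map_smul, LinearMap.smul_apply, smul_eq_mul]

theorem D_self (P : ST M ω s pu C D) (w : A) (u : B) : D w (pu w u) = 0 := by
  rw [P.D_pu, P.T.alt, zero_smul]

theorem exists_dual (P : ST M ω s pu C D) {w : A} (hw : w ≠ 0) : ∃ x, ω x w = 1 := by
  obtain ⟨y, hy⟩ : ∃ y, ω w y ≠ 0 := by by_contra hc; push Not at hc; exact hw (P.T.ωnd w hc)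
  exact ⟨-((ω w y)⁻¹ • y), by
    rw [map_neg, LinearMap.neg_apply, map_smul, LinearMap.smul_apply, P.T.ωswap w y, smul_eq_mul, mul_neg,
      neg_neg, inv_mul_cancel₀ hy]⟩

theorem pu_inj (P : ST M ω s pu C D) {x : A} (hx : x ≠ 0) {u u' : B} (h : pu x u = pu x u') : u = u' := by
  obtain ⟨y, hy⟩ : ∃ y, ω x y ≠ 0 := by by_contra hc; push Not at hc; exact hx (P.T.ωnd x hc)
  have := congrArg (D y) h
  rw [P.D_pu, P.D_pu] at this
  exact smul_right_injective B hy this

theorem mem_beta (P : ST M ω s pu C D) {g : GL (Fin m ⊕ Fin m) F} (hg : g ∈ M) (u v : V) :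
    β (op g u) (op g v) = β u v := mem_spGL.mp (P.T.sp hg) u v

theorem root_layer (P : ST M ω s pu C D) (w : A) : Root s (pu w) (D w) :=
  ⟨fun y u => P.Dspec w y u, P.D_self w⟩

theorem root_conj (P : ST M ω s pu C D) {K : B →ₗ[F] V} {L : V →ₗ[F] B} (h : Root s K L)
    {g : GL (Fin m ⊕ Fin m) F} (hg : g ∈ M) : Root s ((op g).comp K) (L.comp (op g⁻¹)) := by
  refine ⟨fun y u => ?_, fun u => ?_⟩
  · rw [LinearMap.comp_apply, h.1, LinearMap.comp_apply]
    have := P.mem_beta hg (op g⁻¹ y) (K u)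
    rwa [← Module.End.mul_apply, op_mul_inv, Module.End.one_apply, eq_comm] at this
  · rw [LinearMap.comp_apply, LinearMap.comp_apply, ← Module.End.mul_apply, op_inv_mul, Module.End.one_apply]
    exact h.2 u

/-- An element of the group acting as the product of two isometries. -/
theorem exists_elem (P : ST M ω s pu C D) (G : Module.End F A) (k : Module.End F B)
    (hG : ∀ x y, ω (G x) (G y) = ω x y) (hk : ∀ u v, s (k u) (k v) = s u v) :
    ∃ g ∈ M, ∀ x u, op g (pu x u) = pu (G x) (k u) := P.T.isom G k hG hk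

theorem root_mem (P : ST M ω s pu C D) (w : A) (c : F) :
    ∃ g ∈ M, op g = 1 + c • lay pu D w 1 := by
  obtain ⟨g, hg, he⟩ := P.exists_elem (tv ω w c) LinearMap.id (P.T.tv_isom w c) (fun _ _ => rfl)
  refine ⟨g, hg, P.T.ext_pu fun x u => ?_⟩
  rw [he, tv_apply]
  simp [lay_apply, P.D_pu, smul_smul]

theorem Dw_surj (P : ST M ω s pu C D) {w : A} (hw : w ≠ 0) (u : B) : ∃ v, D w v = u := by
  obtain ⟨x, hx⟩ := P.exists_dual hw
  exact ⟨pu x u, by rw [P.D_pu, hx, one_smul]⟩

end ST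

end Cfsg.Agent.H1.SpT
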